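import Cfsg.Agent.H5.SUSinger
import Cfsg.Agent.H2.SympType
import Cfsg.Agent.H8.Count

/-!
Group lemmas and degree-five fields of matrices.
-/

set_option autoImplicit false
set_option linter.unusedSectionVars false

namespace Cfsg.Agent.X5

open Module Cfsg.Geo Cfsg.Agent.Asch
open scoped MatrixGroups Matrix Pointwise

/-- a group acting freely on the Sylow subgroups -/
theorem dvd_card_of_free {G : Type*} [Group G] [Finite G] (P T : Subgroup G)
    (hT : ∀ t ∈ T, ∀ x ∈ P, t * x * t⁻¹ ∈ P) (l : ℕ) [Fact l.Prime]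
    (h : ∀ u ∈ T, ∀ Q : Subgroup G, Q ≤ P → Nat.card Q = l ^ (Nat.card P).factorization l →
      (∀ x ∈ Q, u * x * u⁻¹ ∈ Q) → u = 1) : Nat.card T ∣ Nat.card P := by
  have hle : T ≤ Subgroup.normalizer (P : Set G) := fun t ht => Subgroup.mem_normalizer_iff.2 fun x =>
    ⟨hT t ht x, fun hx => by simpa [mul_assoc] using hT t⁻¹ (T.inv_mem ht) _ hx⟩
  let φ : T →* MulAut P := P.normalizerMonoidHom.comp (Subgroup.inclusion hle)
  letI : MulAction T (Sylow l P) := MulAction.compHom (Sylow l P) φ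
  have hs : ∀ Q : Sylow l P, MulAction.stabilizer T Q = ⊥ := by
    intro Q
    rw [eq_bot_iff]
    intro u hu
    have hu' : φ u • Q = Q := hu
    refine Subgroup.mem_bot.2 (Subtype.ext (h u u.2 ((Q : Subgroup P).map P.subtype) (Subgroup.map_subtype_le _) ?_ ?_))
    · rw [Subgroup.card_map_of_injective P.subtype_injective, Sylow.card_eq_multiplicity]
    · rintro _ ⟨x, hx, rfl⟩
      have h1 : φ u • x ∈ ((φ u • Q : Sylow l P) : Subgroup P) := by
        rw [Sylow.pointwise_smul_def]; exact Subgroup.smul_mem_pointwise_smul x (φ u) _ hx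
      rw [hu'] at h1
      exact ⟨_, h1, rfl⟩
  have e := Nat.card_congr (MulAction.selfEquivOrbitsQuotientProd hs)
  rw [Nat.card_prod] at e
  obtain ⟨Q⟩ := (inferInstance : Nonempty (Sylow l P))
  exact (Dvd.intro_left _ e.symm).trans ((Sylow.card_dvd_index Q).trans (Subgroup.index_dvd_card _))

/-- a fixed element for a coprime action -/
theorem exists_fix {G : Type*} [Group G] [Finite G] (Q : Subgroup G) {u : G} {r : ℕ} (hr : r.Prime)
    (hu : u ^ r = 1) (hQ : ∀ x ∈ Q, u * x * u⁻¹ ∈ Q) (hc : ¬ r ∣ Nat.card Q - 1) :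
    ∃ y ∈ Q, y ≠ 1 ∧ u * y = y * u := by
  haveI := Fact.mk hr
  by_contra hn
  push Not at hn
  have h1 := H2.SympType.ncard_modEq (T := (Q : Set G)) (Set.toFinite _) (r := r) hQ
    (fun a _ => by simp [hu])
  have h2 : {a ∈ (Q : Set G) | u * a = a * u} = {1} := by
    ext a
    simp only [Set.mem_setOf_eq, SetLike.mem_coe, Set.mem_singleton_iff]
    exact ⟨fun ha => by by_contra h; exact hn a ha.1 h ha.2, by rintro rfl; exact ⟨Q.one_mem, by simp⟩⟩
  rw [h2, Set.ncard_singleton, show (Q : Set G).ncard = Nat.card Q from rfl] at h1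
  exact hc ((Nat.modEq_iff_dvd' Nat.card_pos).1 h1.symm)

theorem exists_prime_pow {G : Type*} [Group G] [Finite G] {u : G} (hu : u ≠ 1) :
    ∃ r k : ℕ, r.Prime ∧ r ∣ orderOf u ∧ (u ^ k) ^ r = 1 ∧ u ^ k ≠ 1 := by
  have h1 : orderOf u ≠ 1 := fun h => hu (orderOf_eq_one_iff.1 h)
  obtain ⟨r, hr, k, hk⟩ := Nat.exists_prime_and_dvd h1
  refine ⟨r, k, hr, ⟨k, hk⟩, by rw [← pow_mul, mul_comm, ← hk, pow_orderOf_eq_one], fun h => ?_⟩
  have h2 := orderOf_dvd_of_pow_eq_one h
  have h3 : 0 < k := Nat.pos_of_ne_zero (by rintro rfl; exact (orderOf_pos u).ne' (by rw [hk, mul_zero]))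
  have := Nat.le_of_dvd h3 h2
  have := hr.two_le
  nlinarith

theorem exists_max {G : Type*} [Group G] [Finite G] {K M : Subgroup G} (h : M < K) :
    ∃ M', M ≤ M' ∧ IsMaximalIn K M' := by
  obtain ⟨M', h1, h2⟩ := Finite.exists_le_maximal (p := fun X : Subgroup G => X < K) h
  refine ⟨M', h1, h2.prop, fun X hX hK => ?_⟩
  rcases hK.lt_or_eq with h3 | h3
  · exact Or.inl (le_antisymm (h2.le_of_ge h3 hX) hX)
  · exact Or.inr h3

theorem max_of {G : Type*} [Group G] [Finite G] {K H : Subgroup G} (h : H < K)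
    (hm : ∀ M, H ≤ M → IsMaximalIn K M → M ≤ H) : IsMaximalIn K H := by
  obtain ⟨M, h1, h2⟩ := exists_max h
  rwa [le_antisymm h1 (hm M h1 h2)]

/-- primes dividing `Q^5 - 1` but not `Q - 1` -/
theorem prime_facts {Q r : ℕ} (hQ : 0 < Q) (hr : r.Prime) (h5 : r ∣ Q ^ 5 - 1) (h1 : ¬ r ∣ Q - 1) :
    r % 5 = 1 ∧ ∀ i, r ∣ Q ^ i - 1 → 5 ∣ i := by
  haveI := Fact.mk hr
  have key : ∀ i, r ∣ Q ^ i - 1 ↔ (Q : ZMod r) ^ i = 1 := fun i => by
    rw [← ZMod.natCast_eq_zero_iff, Nat.cast_sub (Nat.one_le_pow _ _ hQ), sub_eq_zero]; simp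
  haveI : Fact (Nat.Prime 5) := ⟨by norm_num⟩
  have ho : orderOf (Q : ZMod r) = 5 := orderOf_eq_prime ((key 5).1 h5) fun h => h1 (by
    have := (key 1).2 (by simpa using h); simpa using this)
  have h0 : (Q : ZMod r) ≠ 0 := fun h => by
    have := (key 5).1 h5
    rw [h] at this; simp at this
  refine ⟨?_, fun i hi => ho ▸ orderOf_dvd_of_pow_eq_one ((key i).1 hi)⟩
  have := ho ▸ orderOf_dvd_of_pow_eq_one (ZMod.pow_card_sub_one_eq_one h0)
  have := hr.two_le
  omega

abbrev M5 (F : Type*) := Matrix (Fin 5) (Fin 5) F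

variable {F : Type*} [Field F] [Fintype F]

section fld

variable {K : Subalgebra F (M5 F)} (hK : IsFieldSubalgebra 5 K)
include hK

theorem indep {y : M5 F} (hy : y ∈ K) (hs : ∀ c : F, y ≠ c • 1) (c : Fin 5 → F)
    (hc : ∑ i, c i • y ^ (i : ℕ) = 0) : ∀ i, c i = 0 := by
  letI : Field K := (isField_of_inv hK.comm hK.inv).toField
  haveI := Fintype.ofFinite K
  have hi := H5.SU.indep_pow (F := F) (by norm_num) hK.finrank_eq (x := (⟨y, hy⟩ : K)) (by
    rintro ⟨c, hc⟩
    exact hs c (by rw [← Algebra.algebraMap_eq_smul_one]; exact (congrArg Subtype.val hc).symm))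
  refine Fintype.linearIndependent_iff.1 hi c (Subtype.ext ?_)
  simpa using hc

theorem span {y : M5 F} (hy : y ∈ K) (hs : ∀ c : F, y ≠ c • 1) {z : M5 F} (hz : z ∈ K) :
    ∃ c : Fin 5 → F, z = ∑ i, c i • y ^ (i : ℕ) := by
  have hi : LinearIndependent F fun i : Fin 5 => (⟨y, hy⟩ : K) ^ (i : ℕ) :=
    Fintype.linearIndependent_iff.2 fun c hc => indep hK hy hs c (by simpa using congrArg Subtype.val hc)
  have : (⟨z, hz⟩ : K) ∈ Submodule.span F (Set.range fun i : Fin 5 => (⟨y, hy⟩ : K) ^ (i : ℕ)) := by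
    rw [hi.span_eq_top_of_card_eq_finrank (by simp [hK.finrank_eq])]; trivial
  obtain ⟨c, hc⟩ := (Submodule.mem_span_range_iff_exists_fun F).1 this
  exact ⟨c, by simpa using (congrArg Subtype.val hc).symm⟩

theorem cent {y : M5 F} (hy : y ∈ K) (hs : ∀ c : F, y ≠ c • 1) {z : M5 F} (hz : z * y = y * z) : z ∈ K := by
  refine mem_of_comm_singer (by simpa using hK) fun k hk => ?_
  obtain ⟨c, rfl⟩ := span hK hy hs hk
  rw [Finset.mul_sum, Finset.sum_mul]
  refine Finset.sum_congr rfl fun i _ => ?_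
  rw [Matrix.mul_smul, Matrix.smul_mul, (Commute.pow_right hz i).eq]

theorem unit {y : M5 F} (hy : y ∈ K) (h0 : y ≠ 0) : IsUnit y := by
  obtain ⟨z, -, hz⟩ := hK.inv y hy h0
  exact IsUnit.of_mul_eq_one z hz

theorem irr {y : M5 F} (hy : y ∈ K) (hs : ∀ c : F, y ≠ c • 1) (W : Submodule F (Fin 5 → F))
    (hW : ∀ v ∈ W, y *ᵥ v ∈ W) : W = ⊥ ∨ W = ⊤ := by
  by_cases h0 : W = ⊥
  · exact Or.inl h0
  right
  obtain ⟨v, hv, hv0⟩ := Submodule.exists_mem_ne_zero_of_ne_bot h0
  have hp : ∀ n : ℕ, y ^ n *ᵥ v ∈ W := fun n => by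
    induction n with
    | zero => simpa using hv
    | succ n ih => rw [pow_succ', ← Matrix.mulVec_mulVec]; exact hW _ ih
  have hi : LinearIndependent F fun i : Fin 5 => (⟨y ^ (i : ℕ) *ᵥ v, hp i⟩ : W) := by
    refine Fintype.linearIndependent_iff.2 fun c hc => indep hK hy hs c ?_
    by_contra hne
    have hu := unit hK (sum_mem fun (i : Fin 5) _ => K.smul_mem (pow_mem hy i) (c i)) hne
    apply hv0
    apply Matrix.mulVec_injective_iff_isUnit.2 hu
    rw [Matrix.mulVec_zero, Matrix.sum_mulVec]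
    simpa [Matrix.smul_mulVec] using congrArg Subtype.val hc
  have := hi.fintype_card_le_finrank
  apply Submodule.eq_top_of_finrank_eq
  have h2 := W.finrank_le
  simp at this h2 ⊢
  omega

theorem pow_card {y : M5 F} (hy : y ∈ K) (h0 : y ≠ 0) : y ^ (Fintype.card F ^ 5 - 1) = 1 := by
  letI : Field K := (isField_of_inv hK.comm hK.inv).toField
  haveI := Fintype.ofFinite K
  have := FiniteField.pow_card_sub_one_eq_one (⟨y, hy⟩ : K) (fun h => h0 (congrArg Subtype.val h))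
  rw [← Nat.card_eq_fintype_card, natCard_fieldSubalgebra hK] at this
  exact congrArg Subtype.val this

/-- elements of order 2, 3, 5 are scalars -/
theorem scal {y : M5 F} (hy : y ∈ K) {l : ℕ} (hl : 0 < l) (hl5 : l ≤ 5) (h : y ^ l = 1) : ∃ c : F, y = c • 1 := by
  by_contra hs
  push Not at hs
  have h1 : y - 1 ≠ 0 := fun h => hs 1 (by rw [one_smul]; exact sub_eq_zero.1 h)
  have hu := unit hK (sub_mem hy K.one_mem) h1
  have h2 : ∑ i ∈ Finset.range l, y ^ i = 0 := by
    apply hu.mul_left_cancel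
    rw [mul_geom_sum, h, sub_self, mul_zero]
  have := indep hK hy hs (fun i => if (i : ℕ) < l then 1 else 0) (by
    rw [← h2]
    interval_cases l <;> simp [Fin.sum_univ_five, Finset.sum_range_succ]) 0
  simp [hl] at this

end fld

theorem nonscalar {y : GL (Fin 5) F} (h : y ∉ scalars (Fin 5) F) (c : F) : (y : M5 F) ≠ c • 1 := fun hc => by
  have h0 : c ≠ 0 := by
    rintro rfl
    exact y.isUnit.ne_zero (by rw [hc, zero_smul])
  exact h ((mem_scalars_iff y).2 ⟨Units.mk0 c h0, hc⟩)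

theorem mem_scalars_of {y : GL (Fin 5) F} {c : F} (hc : (y : M5 F) = c • 1) : y ∈ scalars (Fin 5) F := by
  by_contra h
  exact nonscalar h c hc

theorem scalar_pow {y : GL (Fin 5) F} (h : y ∈ scalars (Fin 5) F) : y ^ (Fintype.card F - 1) = 1 := by
  obtain ⟨c, rfl⟩ := mem_scalars_iff_sc.1 h
  rw [← map_pow, show c ^ (Fintype.card F - 1) = 1 from Units.ext (by
    simpa using FiniteField.pow_card_sub_one_eq_one (c : F) c.ne_zero), map_one]

theorem mem_SL {y : GL (Fin 5) F} : y ∈ specialLinear (Fin 5) F ↔ (y : M5 F).det = 1 := by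
  rw [specialLinear, MonoidHom.mem_ker, Units.ext_iff, Matrix.GeneralLinearGroup.val_det_apply, Units.val_one]

theorem det_one {y : GL (Fin 5) F} (h : y ∈ specialLinear (Fin 5) F) : (y : M5 F).det = 1 := mem_SL.1 h

theorem scalar_five {y : GL (Fin 5) F} (h : y ∈ scalars (Fin 5) F) (hs : y ∈ specialLinear (Fin 5) F) :
    y ^ 5 = 1 := by
  obtain ⟨c, hc⟩ := (mem_scalars_iff y).1 h
  have h1 : (y : M5 F).det = 1 := det_one hs
  rw [hc, Matrix.det_smul, Matrix.det_one, mul_one, Fintype.card_fin] at h1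
  apply Units.ext
  rw [Units.val_pow_eq_pow_val, hc, smul_pow, h1, one_pow, one_smul, Units.val_one]

/-- the order of a subgroup of `SL₅` and of its image modulo scalars -/
theorem card_mod {P : Subgroup (GL (Fin 5) F)} (hP : P ≤ specialLinear (Fin 5) F) :
    ∃ a : ℕ, Nat.card P = Nat.card (P ⧸ (scalars (Fin 5) F).subgroupOf P) * 5 ^ a := by
  haveI : Fact (Nat.Prime 5) := ⟨by norm_num⟩
  have : IsPGroup 5 ((scalars (Fin 5) F).subgroupOf P) := fun x =>
    ⟨1, Subtype.ext (Subtype.ext (by rw [pow_one]; exact scalar_five x.2 (hP x.1.2)))⟩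
  obtain ⟨a, ha⟩ := this.exists_card_eq
  exact ⟨a, by rw [← ha, ← Subgroup.card_eq_card_quotient_mul_card_subgroup]⟩

end Cfsg.Agent.X5
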