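import Cfsg.Agent.X5.A
import Cfsg.Agent.H7.C6M

/-!
Singer elements in dimension five.
-/

set_option autoImplicit false
set_option linter.unusedSectionVars false

namespace Cfsg.Agent.X5

open Module Cfsg.Geo Cfsg.Agent.Asch
open scoped MatrixGroups Matrix commutatorElement

theorem one_of {r a b : ℕ} (ha : r ∣ a) (hb : r ∣ b) (h : a.Coprime b) : r = 1 :=
  Nat.eq_one_of_dvd_coprimes h ha hb

variable {F : Type*} [Field F] [Fintype F]

theorem rdata {R : Subgroup (GL (Fin 5) F)} (hs : IsSymplecticTypeGroup 5 R)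
    (h : ActsAbsolutelyIrreducibly (matrixSet R)) : RData 5 R ∧ ∀ x ∈ R, x ^ 5 = 1 := by
  haveI : Fact (Nat.Prime 5) := ⟨hs.prime⟩
  have he : ∀ g : R, g ^ 5 = 1 := fun g => by
    have := Monoid.pow_exponent_eq_one g
    rwa [hs.exponent_eq] at this
  have he' : ∀ x ∈ R, x ^ 5 = 1 := fun x hx => congrArg Subtype.val (he ⟨x, hx⟩)
  have ha := absIrr_of_acts h
  refine ⟨⟨hs.prime, ha, fun x hx y hy => exists_twist_of_mem
    (ha.mem_scalars_of_comm fun g hg => ?_), fun x hx => by rw [he' x hx]; exact one_mem _⟩, he'⟩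
  have k := H7.C6.comm_mem_center hs.pGroup hs.cyclic_of_characteristic he
    (Subgroup.commutator_mem_commutator (Subgroup.mem_top (⟨x, hx⟩ : R)) (Subgroup.mem_top ⟨y, hy⟩))
  simpa [commutatorElement_def] using
    (congrArg Subtype.val (Subgroup.mem_center_iff.1 k ⟨g, hg⟩)).symm

/-- the extraspecial groups of class six -/
structure C6 (R : Subgroup (GL (Fin 5) F)) : Prop where
  rd : RData 5 R
  pw : ∀ x ∈ R, x ^ 5 = 1
  cen : Nat.card (Subgroup.center R) = 5

theorem C6.card {R : Subgroup (GL (Fin 5) F)} (h : C6 R) : Nat.card R = 125 := by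
  rw [h.rd.card_eq, h.cen]; simp

theorem c6_lin {R : Subgroup (GL (Fin 5) F)} (h : IsLinearSymplecticTypeData 5 R) : C6 R := by
  obtain ⟨h1, h2⟩ := rdata h.symplecticType h.absIrred
  refine ⟨h1, h2, ?_⟩
  obtain ⟨p, e, -, -, h | h | h⟩ := h.field
  · exact h.2.2.1
  · omega
  · omega

theorem sim_pow {α : Type*} {g : GL (Fin 5) F} {c : F} (φ : M5 F → α → F)
    (hm : ∀ x y a, (∀ a, φ x a = c * φ 1 a) → ∃ b, φ (x * y) a = φ x b ∧ φ y a = φ 1 b)
    (h : ∀ a, φ g a = c * φ 1 a) (n : ℕ) (a : α) : φ ((g ^ n : GL (Fin 5) F) : M5 F) a = c ^ n * φ 1 a := by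
  induction n with
  | zero => simp
  | succ n ih =>
    obtain ⟨b, h1, h2⟩ := hm g ((g ^ n : GL (Fin 5) F) : M5 F) a h
    rw [pow_succ', Units.val_mul, h1, h, ← h2, ih]; ring

theorem frame_pow {D : Fin 5 → Submodule F (Fin 5 → F)} {g : GL (Fin 5) F} {σ : Equiv.Perm (Fin 5)}
    (h : ∀ i, (D i).map (Matrix.toLin' (g : M5 F)) = D (σ i)) (n : ℕ) (i : Fin 5) :
    (D i).map (Matrix.toLin' ((g ^ n : GL (Fin 5) F) : M5 F)) = D ((σ ^ n) i) := by
  induction n with
  | zero => simp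
  | succ n ih => rw [pow_succ', Units.val_mul, Matrix.toLin'_mul, Submodule.map_comp, ih, h, pow_succ']; rfl

/-- the normaliser of a field acts through a group of order at most five -/
theorem field_pow {K : Subalgebra F (M5 F)} (hK : IsFieldSubalgebra 5 K) {g : GL (Fin 5) F}
    (hg : g ∈ subalgebraNormalizer K) {k : M5 F} (hk : k ∈ K) :
    ((g ^ 5 : GL (Fin 5) F) : M5 F) * k = k * (g ^ 5 : GL (Fin 5) F) := by
  letI : Field K := (isField_of_inv hK.comm hK.inv).toField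
  haveI := Fintype.ofFinite K
  let φ : K →ₐ[F] K := ((cj g).toAlgHom.comp K.val).codRestrict K fun k => (hg k).1 k.2
  let ψ := AlgEquiv.ofBijective φ (Finite.injective_iff_bijective.1 φ.toRingHom.injective)
  have h1 : ψ ^ 5 = 1 := by
    have := pow_card_eq_one' (x := ψ)
    rwa [IsGalois.card_aut_eq_finrank, hK.finrank_eq] at this
  have h2 : ∀ (n : ℕ) (x : K), ((ψ ^ n) x : M5 F) = cj (g ^ n) x := fun n => by
    induction n with
    | zero => intro x; simp [cj_apply]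
    | succ n ih => intro x; rw [pow_succ, pow_succ, AlgEquiv.mul_apply, ih, cj_mul]; rfl
  have h3 := h2 5 ⟨k, hk⟩
  rw [h1] at h3
  exact (cj_eq_self_iff _ _).1 h3.symm

structure Sg (K : Subalgebra F (M5 F)) (t : GL (Fin 5) F) (m : ℕ) : Prop where
  fld : IsFieldSubalgebra 5 K
  mem : (t : M5 F) ∈ K
  ord : orderOf t = m
  cop : m.Coprime (Fintype.card F - 1)
  big : 11 < m

namespace Sg

variable {K : Subalgebra F (M5 F)} {t : GL (Fin 5) F} {m : ℕ} (h : Sg K t m)
include h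

theorem dvd : m ∣ Fintype.card F ^ 5 - 1 := by
  rw [← h.ord]
  exact orderOf_dvd_of_pow_eq_one (Units.ext (by
    rw [Units.val_pow_eq_pow_val]; exact pow_card h.fld h.mem t.isUnit.ne_zero))

theorem pr {r : ℕ} (hr : r.Prime) (hm : r ∣ m) : r % 5 = 1 ∧ ∀ i, r ∣ Fintype.card F ^ i - 1 → 5 ∣ i :=
  prime_facts Fintype.card_pos hr (hm.trans h.dvd) fun h1 =>
    hr.one_lt.ne' (one_of hm h1 h.cop)

theorem cop_small {n : ℕ} (hn : n ∣ 46410 ^ 12) : m.Coprime n := by
  refine Nat.Coprime.coprime_dvd_right hn (Nat.Coprime.pow_right _ (Nat.coprime_of_dvd fun r hr hm hd => ?_))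
  have h1 := (h.pr hr hm).1
  rw [show 46410 = 2 * 3 * 5 * 7 * 13 * 17 by norm_num] at hd
  simp only [hr.dvd_mul] at hd
  rcases hd with ((((hd | hd) | hd) | hd) | hd) | hd <;>
    · rw [Nat.prime_dvd_prime_iff_eq hr (by norm_num)] at hd
      omega

theorem pmem (n : ℕ) : ((t ^ n : GL (Fin 5) F) : M5 F) ∈ K := by
  rw [Units.val_pow_eq_pow_val]; exact pow_mem h.mem n

theorem ns {n : ℕ} (hn : ¬ m ∣ n) : t ^ n ∉ scalars (Fin 5) F := fun hs => hn (by
  have := scalar_pow hs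
  rw [← pow_mul, ← orderOf_dvd_iff_pow_eq_one, h.ord] at this
  exact h.cop.dvd_of_dvd_mul_right this)

theorem ns' {n : ℕ} (hn : m.Coprime n) : t ^ n ∉ scalars (Fin 5) F := h.ns fun hd => by
  have := one_of dvd_rfl hd hn
  have := h.big
  omega

theorem sl : t ∈ specialLinear (Fin 5) F := by
  rw [mem_SL]
  have h1 : (t : M5 F).det ^ m = 1 := by
    rw [← Matrix.det_pow, ← Units.val_pow_eq_pow_val, ← h.ord, pow_orderOf_eq_one, Units.val_one, Matrix.det_one]
  have h2 := FiniteField.pow_card_sub_one_eq_one (t : M5 F).det (Matrix.GeneralLinearGroup.det_ne_zero t)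
  exact (pow_eq_one_iff_of_coprime h.cop).1 ⟨h1, h2⟩

theorem norm : t ∈ subalgebraNormalizer K := fun k => by
  have e : ∀ k ∈ K, (t : M5 F) * k * ((t⁻¹ : GL (Fin 5) F) : M5 F) = k := fun k hk => by
    rw [h.fld.comm _ h.mem k hk, mul_assoc, Units.mul_inv, mul_one]
  refine ⟨fun hk => by rwa [e k hk], fun hk => ?_⟩
  have := e _ hk
  have h2 : (t : M5 F) * k * ((t⁻¹ : GL (Fin 5) F) : M5 F) = k := (cj t).injective this
  rwa [h2] at hk

theorem not_stab {W : Submodule F (Fin 5 → F)} (h0 : W ≠ ⊥) (h1 : W ≠ ⊤) : t ∉ subspaceStabilizer W := fun ht => by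
  have := h.ns' (n := 1) (by simp)
  rw [pow_one] at this
  rcases irr h.fld h.mem (nonscalar this) W fun v hv => (ht v).1 hv with h | h <;> contradiction

theorem not_frame {D : Fin 5 → Submodule F (Fin 5 → F)} (hD : IsMDecomposition 1 D) :
    t ∉ decompositionStabilizer D := by
  rintro ⟨σ, hσ⟩
  have h1 : σ ^ 120 = 1 := by
    have := pow_card_eq_one (x := σ)
    rwa [Fintype.card_perm, Fintype.card_fin] at this
  have h2 := frame_pow hσ 120 0
  rw [h1, Equiv.Perm.one_apply] at h2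
  have h3 := hD.finrank_eq 0
  rcases irr h.fld (h.pmem 120) (nonscalar (h.ns' (h.cop_small (by norm_num)))) (D 0)
    (fun v hv => h2 ▸ Submodule.mem_map_of_mem hv) with h | h <;> rw [h] at h3 <;> simp at h3

theorem eq_field {K' : Subalgebra F (M5 F)} (hK : IsFieldSubalgebra 5 K') (ht : t ∈ subalgebraNormalizer K') :
    K' = K := by
  refine Subalgebra.eq_of_le_of_finrank_eq (fun k hk => ?_) (by rw [hK.finrank_eq, h.fld.finrank_eq])
  exact cent h.fld (h.pmem 5) (nonscalar (h.ns' (h.cop_small (by norm_num)))) (field_pow hK ht hk).symm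

theorem subfield {F₀ : Subfield F} {P : GL (Fin 5) F} {r : ℕ} (hr : Fintype.card F = Nat.card F₀ ^ r)
    (ht : t ∈ subfieldSubgroup F₀ P) : m ∣ Nat.card F₀ ^ 5 - 1 := by
  classical
  obtain ⟨c, y, hc, e⟩ := (mem_subfieldSubgroup_iff F₀ P t).1 ht
  haveI := Fintype.ofFinite F₀
  have h1 : t ^ (Nat.card (GL (Fin 5) F₀)) ∈ scalars (Fin 5) F := by
    refine mem_scalars_of (c := c ^ Nat.card (GL (Fin 5) F₀)) ((cj P⁻¹).injective ?_)
    rw [Units.val_pow_eq_pow_val, map_pow, e, smul_pow, map_smul, map_one, ← RingHom.mapMatrix_apply, ← map_pow,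
      ← Units.val_pow_eq_pow_val, pow_card_eq_one', Units.val_one, map_one]
  have h2 : m ∣ Nat.card (GL (Fin 5) F₀) := by
    by_contra hn; exact h.ns hn h1
  rw [H8.card_GL_eq, H8.qfact_succ, ← mul_assoc, ← Nat.card_eq_fintype_card] at h2
  refine Nat.Coprime.dvd_of_dvd_mul_left (Nat.coprime_of_dvd fun l hl hm hd => ?_) h2
  have hq : 0 < Nat.card F₀ := Nat.card_pos
  have key : ∀ i, l ∣ Nat.card F₀ ^ i - 1 → 5 ∣ i := fun i hi => (h.pr hl hm).2 i (by
    rw [hr, ← pow_mul, mul_comm, pow_mul]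
    exact hi.trans (by simpa using Nat.sub_dvd_pow_sub_pow (Nat.card F₀ ^ i) 1 r))
  rcases (Nat.Prime.dvd_mul hl).1 hd with hd | hd
  · have h3 : l ∣ Fintype.card F ^ 5 := by
      have h4 : r ≠ 0 := by
        rintro rfl
        have := Fintype.one_lt_card (α := F)
        simp at hr; omega
      rw [hr]
      exact dvd_pow (dvd_pow (hl.dvd_of_dvd_pow hd) h4) (by norm_num)
    have h4 := (Nat.dvd_sub_iff_right (Nat.one_le_pow _ _ Fintype.card_pos) h3).1 (hm.trans h.dvd)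
    exact hl.one_lt.ne' (Nat.dvd_one.1 h4)
  · rw [H8.qfact] at hd
    obtain ⟨j, hj, hd⟩ := (Prime.dvd_finset_prod_iff hl.prime _).1 hd
    have := key _ hd
    have := Finset.mem_range.1 hj
    omega

theorem not_c6 {R : Subgroup (GL (Fin 5) F)} (hR : C6 R) : t ∉ subgroupNormalizer R := fun ht => by
  have hb := h.big
  obtain ⟨r, k, hr, h1, h2, h3⟩ := exists_prime_pow (u := t) (fun e => by
    have := h.ord; rw [e, orderOf_one] at this; omega)
  haveI := Fact.mk hr
  rw [h.ord] at h1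
  have hk : t ^ k ∉ scalars (Fin 5) F := h.ns fun hd => h3 (by rwa [← orderOf_dvd_iff_pow_eq_one, h.ord])
  have h4 := H2.SympType.ncard_modEq (T := (R : Set (GL (Fin 5) F))) (Set.toFinite _) (r := r) (y := t ^ k)
    (fun a ha => (Subgroup.mem_normalizer_iff.1 (pow_mem ht k) a).1 ha) (fun a _ => by simp [h2])
  have h5 : {a ∈ (R : Set (GL (Fin 5) F)) | t ^ k * a = a * t ^ k} = (Subgroup.center R).map R.subtype := by
    ext a
    simp only [Set.mem_setOf_eq, SetLike.mem_coe, hR.rd.center_eq]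
    constructor
    · rintro ⟨ha, hc⟩
      obtain ⟨c, hc⟩ := scal h.fld (cent h.fld (h.pmem k) (nonscalar hk) (congrArg Units.val hc).symm)
        (l := 5) (by norm_num) le_rfl (congrArg Units.val (hR.pw a ha))
      exact ⟨⟨a, ha⟩, mem_scalars_of hc, rfl⟩
    · rintro ⟨a, ha, rfl⟩
      exact ⟨a.2, (scalars_comm ha _).symm⟩
  rw [h5, show (R : Set (GL (Fin 5) F)).ncard = Nat.card R from rfl, hR.card, ← Nat.card_coe_set_eq,
    SetLike.coe_sort_coe, Subgroup.card_map_of_injective R.subtype_injective, hR.cen] at h4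
  have h6 : r ∣ 120 := (Nat.modEq_iff_dvd' (by norm_num)).1 h4.symm
  exact hr.one_lt.ne' (one_of h1 h6 (h.cop_small (by norm_num)))

theorem not_quad (h2 : (2 : F) ≠ 0) {Q : (Fin 5 → F) → F} (hQ : IsNondegenerateQuadraticForm Q) :
    t ∉ quadSimilarityGroup Q := by
  rintro ⟨c, hc⟩
  set u := t ^ (Fintype.card F - 1) with hu
  have h1 : ∀ v, Q ((u : M5 F) *ᵥ v) = Q v := fun v => by
    have := sim_pow (g := t) (c := c) (fun x v => Q (x *ᵥ v))
      (fun x y a _ => ⟨y *ᵥ a, by simp, by simp⟩) (by simpa using hc) (Fintype.card F - 1) v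
    simpa [FiniteField.pow_card_sub_one_eq_one (c : F) c.ne_zero, hu] using this
  have hs := sesq_of_bilinear hQ.polar_bilinear
  have hG := hs.isUnit_gram hQ.nondegenerate
  set G := gramMatrix (QuadraticMap.polar Q)
  have h3 : (u : M5 F)ᵀ * G * u = G := gf_ext (σ := RingEquiv.refl F) fun v w => by
    have := gf_mulVec (RingEquiv.refl F) G u u v w
    rw [map_refl] at this
    rw [← this, ← hs.eq_gf, QuadraticMap.polar, QuadraticMap.polar, ← Matrix.mulVec_add, h1, h1, h1]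
  have h4 : (u : M5 F)ᵀ * G * ((u : M5 F) - 1) = (-((u : M5 F) - 1))ᵀ * G := by
    rw [mul_sub, h3]; simp [sub_mul]
  have h5 := congrArg Matrix.det h4
  simp only [Matrix.det_mul, Matrix.det_transpose, Matrix.det_neg, Fintype.card_fin,
    det_one (pow_mem h.sl (Fintype.card F - 1)), hu] at h5
  have h6 : IsUnit ((u : M5 F) - 1) := unit h.fld (sub_mem (h.pmem _) K.one_mem) fun e =>
    nonscalar (h.ns' h.cop) 1 (by rw [one_smul]; exact sub_eq_zero.1 e)
  have h7 := ((Matrix.isUnit_iff_isUnit_det _).1 h6).ne_zero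
  have h8 := ((Matrix.isUnit_iff_isUnit_det _).1 hG).ne_zero
  refine mul_ne_zero h2 (mul_ne_zero h7 h8) ?_
  rw [hu]
  linear_combination h5

theorem uni {σ : F ≃+* F} {f : (Fin 5 → F) → (Fin 5 → F) → F} (hf : IsUnitaryForm σ f)
    (ht : t ∈ similarityGroup f) : m ∣ Nat.card (fixSub σ) ^ 5 + 1 := by
  obtain ⟨c, hc⟩ := ht
  set u := t ^ (Fintype.card F - 1) with hu
  have h1 : ∀ v w, f ((u : M5 F) *ᵥ v) ((u : M5 F) *ᵥ w) = f v w := fun v w => by
    have := sim_pow (g := t) (c := c) (fun x (a : (Fin 5 → F) × (Fin 5 → F)) => f (x *ᵥ a.1) (x *ᵥ a.2))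
      (fun x y a _ => ⟨(y *ᵥ a.1, y *ᵥ a.2), by simp, by simp⟩) (by simpa using hc) (Fintype.card F - 1) (v, w)
    simpa [FiniteField.pow_card_sub_one_eq_one (c : F) c.ne_zero, hu] using this
  have hs := sesq_of_unitary hf
  set G := gramMatrix f
  have hG : Herm σ 1 G := ⟨hf.involutive, hs.isUnit_gram hf.nondegenerate, by
    ext i j
    simp only [Matrix.transpose_apply, Matrix.map_apply, one_smul, G, gramMatrix]
    exact (hf.herm _ _).symm, Or.inl rfl⟩
  have h2 : adj σ G u = (u⁻¹ : GL (Fin 5) F) := adj_of_fixes hG.unit (gf_ext (σ := σ) fun v w => by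
    rw [← gf_mulVec, ← hs.eq_gf, h1])
  have hns := nonscalar (h.ns' h.cop)
  have hi : ((u⁻¹ : GL (Fin 5) F) : M5 F) ∈ K := cent h.fld (h.pmem _) hns (by rw [← hu]; simp)
  have hst : StarC σ G K := fun x hx => by
    obtain ⟨a, rfl⟩ := span h.fld (h.pmem _) hns hx
    rw [adj_sum]
    exact sum_mem fun i _ => by rw [adj_smul, adj_pow hG.unit, ← hu, h2]; exact K.smul_mem (pow_mem hi _) _
  letI : Field K := (isField_of_inv h.fld.comm h.fld.inv).toField
  haveI := Fintype.ofFinite K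
  have hcard : Fintype.card K = (Nat.card (fixSub σ) ^ 5) ^ 2 := by
    rw [← Nat.card_eq_fintype_card, natCard_fieldSubalgebra h.fld, card_eq_card_fixSub_sq hf.involutive hf.ne_refl,
      ← pow_mul, ← pow_mul]
  set τ := adjEquiv hG h.fld.comm hst
  have hτc : ∀ k : K, (τ k : M5 F) = adj σ G k := fun k => rfl
  have hτ : ∀ a, τ (τ a) = a := fun x => Subtype.ext (hG.adj_adj x)
  have hτ' : τ ≠ RingEquiv.refl K := fun e => by
    obtain ⟨a, ha⟩ := exists_ne_of_ne_refl hf.ne_refl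
    have h2 := hτc (algebraMap F K a)
    rw [e] at h2
    change algebraMap F (M5 F) a = adj σ G (algebraMap F _ a) at h2
    rw [Algebra.algebraMap_eq_smul_one, adj_smul_one hG.unit, hG.symm_eq] at h2
    exact ha (smul_one_injective h2).symm
  have h3 := congrArg Subtype.val (invol_eq_pow hτ hτ' hcard ⟨u, h.pmem _⟩)
  rw [hτc, h2] at h3
  have h4 : u ^ (Nat.card (fixSub σ) ^ 5 + 1) = 1 := by
    rw [pow_succ, mul_eq_one_iff_eq_inv]
    exact Units.ext (by rw [h3]; simp)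
  rw [hu, ← pow_mul, ← orderOf_dvd_iff_pow_eq_one, h.ord] at h4
  exact h.cop.dvd_of_dvd_mul_left h4

theorem resid {P : Subgroup (GL (Fin 5) F)} (hP : P ≤ specialLinear (Fin 5) F) (ht : ∀ x ∈ P, t * x * t⁻¹ ∈ P)
    {l : ℕ} (hl : l = 2 ∨ l = 3) (hd : l ∣ Nat.card P)
    (hc : ∀ j, 0 < j → l ^ j ∣ Nat.card P → m.Coprime (l ^ j - 1)) : m ∣ Nat.card P := by
  have hlp : l.Prime := by rcases hl with rfl | rfl <;> norm_num
  haveI := Fact.mk hlp
  have hn : ∀ n : ℕ, ∀ x ∈ P, t ^ n * x * (t ^ n)⁻¹ ∈ P := fun n => by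
    induction n with
    | zero => simp
    | succ n ih => intro x hx; simpa [pow_succ', mul_assoc] using ht _ (ih x hx)
  rw [← h.ord, ← Nat.card_zpowers]
  refine dvd_card_of_free P _ (fun u hu => ?_) l fun u hu Q hQ hcard hu' => ?_
  · obtain ⟨n, rfl⟩ := (mem_powers_iff_mem_zpowers.2 hu : u ∈ Submonoid.powers t)
    exact hn n
  by_contra hne
  obtain ⟨n, rfl⟩ := (mem_powers_iff_mem_zpowers.2 hu : u ∈ Submonoid.powers t)
  obtain ⟨r, k, hr, h1, h2, h3⟩ := exists_prime_pow hne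
  have h1' : r ∣ m := h1.trans (h.ord ▸ orderOf_pow_dvd n)
  have hn' : ∀ k : ℕ, ∀ x ∈ Q, (t ^ n) ^ k * x * ((t ^ n) ^ k)⁻¹ ∈ Q := fun k => by
    induction k with
    | zero => simp
    | succ k ih => intro x hx; simpa [pow_succ', mul_assoc] using hu' _ (ih x hx)
  have hj := hc _ (hlp.factorization_pos_of_dvd Nat.card_pos.ne' hd) (Nat.ordProj_dvd _ _)
  obtain ⟨y, hy, hy1, hyc⟩ := exists_fix Q hr h2 (hn' k) (by
    rw [hcard]; exact fun hd => hr.one_lt.ne' (one_of h1' hd hj))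
  obtain ⟨r', k', hr', h4, h5, h6⟩ := exists_prime_pow hy1
  obtain rfl : r' = l := by
    have := h4.trans (Subgroup.orderOf_dvd_natCard Q hy)
    rw [hcard] at this
    exact (Nat.prime_dvd_prime_iff_eq hr' hlp).1 (hr'.dvd_of_dvd_pow this)
  rw [← pow_mul] at h3 hyc
  have hk : t ^ (n * k) ∉ scalars (Fin 5) F := h.ns fun hd => h3 (by rwa [← orderOf_dvd_iff_pow_eq_one, h.ord])
  obtain ⟨c, hc⟩ := scal h.fld (y := ((y ^ k' : GL (Fin 5) F) : M5 F)) (by
    rw [Units.val_pow_eq_pow_val]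
    exact pow_mem (cent h.fld (h.pmem _) (nonscalar hk) (congrArg Units.val hyc).symm) _)
    hr'.pos (by omega) (congrArg Units.val h5)
  have h7 := scalar_five (mem_scalars_of hc) (pow_mem (hP (hQ hy)) _)
  exact h6 ((pow_eq_one_iff_of_coprime (by rcases hl with rfl | rfl <;> norm_num)).1 ⟨h5, h7⟩)

end Sg

end Cfsg.Agent.X5
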