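import Cfsg.Agent.L4.GU0
import Cfsg.Agent.O5.G5
import Cfsg.Agent.H8.Count

/-!
Orders of the small simple groups.
-/

set_option autoImplicit false
set_option maxRecDepth 100000

namespace Cfsg.Agent.X5

open Matrix Polynomial Cfsg.Agent.L4.GU Cfsg.Agent.L4.H

theorem bez (c0 c1 c2 c3 : Q4) (h0 : c0 ^ 2 = c0) (h1 : c1 ^ 2 = c1) (h2 : c2 ^ 2 = c2) (h3 : c3 ^ 2 = c3)
    (hs : 1 + c3 + c2 + c1 + c0 = 0) : ∃ u w : Q4[X],
      X - 1 = u * (X ^ 4 + C c3 * X ^ 3 + C c2 * X ^ 2 + C c1 * X + C c0) + w * (X ^ 5 - 1) := by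
  have k : ∀ c : Q4, c ^ 2 = c → c = 0 ∨ c = 1 := by decide +kernel
  have t : (2 : Q4[X]) = 0 := by
    rw [show (2 : Q4[X]) = C 2 from rfl, show (2 : Q4) = 0 from by
      rw [← one_add_one_eq_two]; decide +kernel, map_zero]
  rcases k _ h0 with rfl | rfl <;> rcases k _ h1 with rfl | rfl <;> rcases k _ h2 with rfl | rfl <;>
    rcases k _ h3 with rfl | rfl <;> first | exact absurd hs (by decide +kernel) | simp only [map_zero, map_one]
  · exact ⟨X ^ 2, -1 - X, by linear_combination -(1) * t⟩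
  · exact ⟨X + X ^ 4, -1 - X - X ^ 3, by linear_combination -(1 + X ^ 3) * t⟩
  · exact ⟨X ^ 2 + X ^ 4, -1 - X - X ^ 3, by linear_combination -(1 + X ^ 3) * t⟩
  · exact ⟨X ^ 2 + X ^ 3 + X ^ 4, -3 - 3 * X - 2 * X ^ 2 - X ^ 3,
      by linear_combination -(2 + X + X ^ 2 + X ^ 3 + X ^ 4) * t⟩
  · exact ⟨X, -1, by linear_combination -(1) * t⟩
  · exact ⟨X + X ^ 2 + X ^ 3, -3 - 2 * X - X ^ 2, by linear_combination -(2 + X + X ^ 2 + X ^ 3 + X ^ 4) * t⟩
  · exact ⟨X ^ 3 + X ^ 4, -1 - X - 2 * X ^ 2 - X ^ 3, by linear_combination -(1 + X ^ 2 + X ^ 3 + X ^ 4) * t⟩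
  · exact ⟨X ^ 2 + X ^ 3, -1 - X - X ^ 2, by linear_combination -(1 + X ^ 2 + X ^ 3 + X ^ 4) * t⟩

/-- squaring -/
def sq4 : Q4 →+* Q4 where
  toFun x := x ^ 2
  map_one' := by decide +kernel
  map_mul' := by decide +kernel
  map_zero' := by decide +kernel
  map_add' := by decide +kernel

theorem fix_one {y : Mt Q4} (hu : yᵀ * y.map (· ^ 2) = 1) (h5 : y ^ 5 = 1) {v : Vc Q4} (hv : v ≠ 0)
    (h : y *ᵥ v = v) : y = 1 := by
  have e1 : y.map sq4 = (y ^ 4)ᵀ := by
    have : (y ^ 4)ᵀ * yᵀ = 1 := by rw [← transpose_mul, ← pow_succ', h5, transpose_one]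
    calc y.map sq4 = (y ^ 4)ᵀ * (yᵀ * y.map (· ^ 2)) := by rw [← mul_assoc, this, one_mul]; rfl
      _ = _ := by rw [hu, mul_one]
  have e2 : y.charpoly.map sq4 = y.charpoly := by
    rw [← charpoly_map, e1, charpoly_transpose]
    exact FiniteField.Matrix.charpoly_pow_card y
  have e3 : ∀ i, y.charpoly.coeff i ^ 2 = y.charpoly.coeff i := fun i => by
    have := congrArg (coeff · i) e2
    simp only [coeff_map] at this
    exact this
  have e4 : y.charpoly = X ^ 4 + C (y.charpoly.coeff 3) * X ^ 3 + C (y.charpoly.coeff 2) * X ^ 2 +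
      C (y.charpoly.coeff 1) * X + C (y.charpoly.coeff 0) := by
    have := (charpoly_monic y).as_sum
    rw [charpoly_natDegree_eq_dim, Fintype.card_fin] at this
    simp only [Finset.sum_range_succ, Finset.sum_range_zero] at this
    linear_combination this
  have e5 := aeval_self_charpoly y
  rw [e4] at e5
  have hp : ∀ n : ℕ, y ^ n *ᵥ v = v := fun n => by
    induction n with
    | zero => simp
    | succ n ih => rw [pow_succ, ← mulVec_mulVec, h, ih]
  obtain ⟨u, w, e⟩ := bez _ _ _ _ (e3 0) (e3 1) (e3 2) (e3 3) (by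
    have := congrArg (· *ᵥ v) e5
    simp only [map_add, map_mul, map_pow, aeval_X, aeval_C, Algebra.algebraMap_eq_smul_one, smul_mul_assoc, one_mul,
      add_mulVec, smul_mulVec, hp, h, one_mulVec, zero_mulVec] at this
    refine (smul_eq_zero.1 ?_).resolve_right hv
    simpa only [add_smul, one_smul] using this)
  have := congrArg (aeval y) e
  rw [map_add, map_mul, e5, map_mul] at this
  simpa [h5, sub_eq_zero] using this

theorem un_of (g : SU 4 Q4 2) : (g.1.1)ᵀ * g.1.1.map (· ^ 2) = 1 := by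
  ext i j
  have := g.2 (Pi.single i 1) (Pi.single j 1)
  change hermForm 4 Q4 2 (g.1.1 *ᵥ _) (g.1.1 *ᵥ _) = _ at this
  simp only [hermForm, mulVec_single_one, col_apply] at this
  rw [mul_apply]
  refine this.trans ?_
  by_cases h : i = j
  · subst h; simp [Pi.single_apply]
  · simp [Pi.single_apply, one_apply, h, Ne.symm h]

theorem burn {T V : Type*} [Group T] [Finite T] [MulAction T V] [Finite V] (v0 : V) (h0 : ∀ g : T, g • v0 = v0)
    (h : ∀ (g : T) v, v ≠ v0 → g • v = v → g = 1) : Nat.card T ∣ Nat.card V - 1 := by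
  classical
  haveI := Fintype.ofFinite T
  haveI := Fintype.ofFinite V
  haveI := Fintype.ofFinite (Quotient (MulAction.orbitRel T V))
  have h1 := MulAction.sum_card_fixedBy_eq_card_orbits_mul_card_group T V
  have hV : 0 < Fintype.card V := Fintype.card_pos_iff.2 ⟨v0⟩
  have h2 : ∀ g : T, Fintype.card (MulAction.fixedBy V g) = 1 + if g = 1 then Fintype.card V - 1 else 0 := fun g => by
    split_ifs with hg
    · subst hg
      rw [Fintype.card_congr (Equiv.setCongr (MulAction.fixedBy_one_eq_univ _ _)),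
        Fintype.card_congr (Equiv.Set.univ _)]
      omega
    · refine Fintype.card_eq_one_iff.2 ⟨⟨v0, h0 g⟩, fun v => Subtype.ext ?_⟩
      by_contra hv
      exact hg (h g v hv v.2)
  simp only [h2, Finset.sum_add_distrib, Finset.sum_const, Finset.card_univ, Finset.sum_ite_eq', Finset.mem_univ,
    if_true, smul_eq_mul, mul_one] at h1
  rw [Nat.card_eq_fintype_card, Nat.card_eq_fintype_card]
  exact (Nat.dvd_add_right dvd_rfl).1 (h1 ▸ Dvd.intro_left _ rfl)

theorem not25 : ¬ 25 ∣ Nat.card (SU 4 Q4 2) := fun hd => by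
  haveI : Fact (Nat.Prime 5) := ⟨by norm_num⟩
  obtain ⟨T, hT⟩ := Sylow.exists_subgroup_card_pow_prime (G := SU 4 Q4 2) 5 (n := 2) hd
  letI : MulAction T (Vc Q4) :=
    { smul := fun g v => g.1.1.1 *ᵥ v
      one_smul := fun v => one_mulVec v
      mul_smul := fun a b v => (mulVec_mulVec v _ _).symm }
  have := burn (T := T) (0 : Vc Q4) (fun g => mulVec_zero _) fun g v hv hg => by
    have k : ∀ x : T, x ^ 5 = 1 → x • v = v → x = 1 := fun x h5 hx =>
      Subtype.ext (Subtype.ext (Subtype.ext (fix_one (un_of x.1) (by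
        simpa using congrArg (fun z : T => z.1.1.1) h5) hv hx)))
    have h25 : (g ^ 5) ^ 5 = 1 := by rw [← pow_mul, show 5 * 5 = 5 ^ 2 from rfl, ← hT, pow_card_eq_one']
    exact k g (k _ h25 (pow_mem (show g ∈ MulAction.stabilizer T v from hg) 5)) hg
  rw [hT, Nat.card_eq_fintype_card, show Fintype.card (Vc Q4) = 256 by decide +kernel] at this
  norm_num at this

theorem dvd_quot {G : Type*} [Group G] [Finite G] {a b : G} {p : ℕ} (hp : p.Prime) (ha : a ^ p = 1)
    (h : a * b ≠ b * a) : p ∣ Nat.card (G ⧸ Subgroup.center G) := by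
  haveI := Fact.mk hp
  rw [← orderOf_eq_prime (x := (a : G ⧸ Subgroup.center G)) (p := p)
    (by rw [← QuotientGroup.mk_pow, ha, QuotientGroup.mk_one]) fun e =>
      h (Subgroup.mem_center_iff.1 ((QuotientGroup.eq_one_iff a).1 e) b).symm]
  exact orderOf_dvd_natCard _

/-- what is needed about the orders -/
def Sm (n : ℕ) : Prop := 3 ∣ n ∧ 5 ∣ n ∧ ¬ 25 ∣ n ∧ n ∣ 2 ^ 12 * 3 ^ 4 * 5 ^ 2 * 7 * 11 * 17

/-- an element of order five -/
def y5 : Mt Q4 := S (vec 1) * S (vec 4) * S (vec 21) * S (vec 84)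

theorem y5_facts : Un y5 ∧ Un (S (vec 1)) ∧ y5 * y5 * y5 * y5 * y5 = 1 ∧ S (vec 1) * S (vec 1) * S (vec 1) = 1 ∧
    y5 * S (vec 1) ≠ S (vec 1) * y5 := by decide +kernel

theorem sm_u42 {K : Type} [Field K] [Fintype K] (hK : Fintype.card K = 4) : Sm (Nat.card (PSU 4 K 2)) := by
  let φ : Q4 ≃+* K := FiniteField.ringEquivOfCardEq (by rw [hK]; decide)
  have hi : Function.Injective (suMap φ 4 2) := Function.LeftInverse.injective (suMap_inv φ 4 2)
  have hi' : Function.Injective (suMap φ.symm 4 2) := Function.LeftInverse.injective (suMap_inv φ.symm 4 2)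
  obtain ⟨h1, h2, h3, h4, h5⟩ := y5_facts
  let a : SU 4 Q4 2 := ⟨⟨y5, h1.1⟩, h1.herm⟩
  let b : SU 4 Q4 2 := ⟨⟨S (vec 1), h2.1⟩, h2.herm⟩
  have ha : a ^ 5 = 1 := Subtype.ext (Subtype.ext (by
    simp only [pow_succ, pow_zero, one_mul]; exact h3))
  have hb : b ^ 3 = 1 := Subtype.ext (Subtype.ext (by
    simp only [pow_succ, pow_zero, one_mul]; exact h4))
  have hab : suMap φ 4 2 a * suMap φ 4 2 b ≠ suMap φ 4 2 b * suMap φ 4 2 a := fun e => by
    rw [← map_mul, ← map_mul] at e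
    exact h5 (congrArg (fun z : SU 4 Q4 2 => z.1.1) (hi e))
  have hd : Nat.card (PSU 4 K 2) ∣ Nat.card (SU 4 K 2) := Subgroup.card_quotient_dvd_card _
  refine ⟨dvd_quot (by norm_num) (by rw [← map_pow, hb, map_one]) hab.symm,
    dvd_quot (by norm_num) (by rw [← map_pow, ha, map_one]) hab,
    fun h => not25 ((h.trans hd).trans (Subgroup.card_dvd_of_injective _ hi')), ?_⟩
  refine (hd.trans (Subgroup.card_subgroup_dvd_card _)).trans ?_
  rw [H8.card_SL_eq 4 (by norm_num), hK]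
  decide +kernel

theorem sm_l211 : Sm (Nat.card (Matrix.ProjectiveSpecialLinearGroup (Fin 2) (ZMod 11))) := by
  haveI : Fact (Nat.Prime 11) := ⟨by norm_num⟩
  have := O5.card_psl (E := ZMod 11) (by simp) (by simp; decide)
  rw [ZMod.card] at this
  have h : Nat.card (Matrix.ProjectiveSpecialLinearGroup (Fin 2) (ZMod 11)) = 660 := by omega
  rw [h, Sm]
  norm_num

end Cfsg.Agent.X5
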