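import Cfsg.Agent.X5.B
import Cfsg.Agent.X5.U
import Cfsg.Agent.SE.KnD
import Cfsg.Agent.S5793
import Cfsg.Agent.S5796

/-!
Singer normalisers in `SL₅` and `SU₅`.
-/

set_option autoImplicit false
set_option linter.unusedSectionVars false

namespace Cfsg.Agent.X5

open Module Cfsg.Geo Cfsg.Agent.Asch
open scoped MatrixGroups Matrix

theorem arith_sl {Q : ℕ} (hQ : 2 ≤ Q) : ∃ m, m ∣ Q ^ 5 - 1 ∧ m.Coprime (Q - 1) ∧ Q ^ 4 < 5 * m ∧ 11 < m ∧
    (Q = 3 → m = 121) := by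
  obtain ⟨s, rfl⟩ : ∃ s, Q = s + 1 := ⟨Q - 1, by omega⟩
  have e : (s + 1) ^ 5 - 1 = s * (5 + s * (10 + 10 * s + 5 * s ^ 2 + s ^ 3)) := Nat.sub_eq_of_eq_add (by ring)
  rw [e, Nat.add_sub_cancel]
  by_cases h5 : 5 ∣ s
  · obtain ⟨k, rfl⟩ := h5
    have hk : 1 ≤ k := by omega
    refine ⟨1 + 5 * k * (2 + 10 * k + 25 * k ^ 2 + 25 * k ^ 3), ⟨5 * k * 5, by ring⟩, by simp, ?_, ?_, by omega⟩
    · nlinarith [Nat.zero_le (k ^ 2), Nat.zero_le (k ^ 3)]
    · nlinarith [Nat.zero_le (k ^ 2), Nat.zero_le (k ^ 3)]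
  · have hs : 1 ≤ s := by omega
    refine ⟨_, Dvd.intro_left _ rfl, ?_, ?_, ?_, fun h => ?_⟩
    · rw [Nat.coprime_add_mul_left_left]
      exact (Nat.Prime.coprime_iff_not_dvd (by norm_num)).2 h5
    · nlinarith [Nat.zero_le (s ^ 2), Nat.zero_le (s ^ 3), Nat.zero_le (s ^ 4)]
    · nlinarith [Nat.zero_le (s ^ 2), Nat.zero_le (s ^ 3)]
    · obtain rfl : s = 2 := by omega
      norm_num

theorem arith_su {q : ℕ} (hq : 3 ≤ q) : ∃ m, m ∣ q ^ 5 + 1 ∧ m.Coprime (q ^ 2 - 1) ∧ (q - 1) * q ^ 3 < 5 * m ∧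
    11 < m := by
  obtain ⟨a, rfl⟩ : ∃ a, q = a + 1 := ⟨q - 1, by omega⟩
  have e : (a + 1) ^ 2 - 1 = a * (a + 2) := Nat.sub_eq_of_eq_add (by ring)
  rw [e, Nat.add_sub_cancel]
  by_cases h5 : 5 ∣ a + 2
  · obtain ⟨k, rfl⟩ : ∃ k, a = 5 * k + 3 := ⟨(a - 3) / 5, by omega⟩
    refine ⟨125 * k ^ 4 + 375 * k ^ 3 + 425 * k ^ 2 + 215 * k + 41, ⟨25 * (k + 1), by ring⟩,
      Nat.Coprime.mul_right ?_ ?_, ?_, by omega⟩
    · refine Nat.isCoprime_iff_coprime.1 ⟨5, -((5 * k + 3) ^ 3 + 3 * (5 * k + 3) ^ 2 + 4 * (5 * k + 3) + 2), ?_⟩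
      push_cast; ring
    · refine Nat.isCoprime_iff_coprime.1 ⟨1, -(25 * (k + 1) ^ 3 - 25 * (k + 1) ^ 2 + 10 * (k + 1) - 2), ?_⟩
      push_cast; ring
    · nlinarith [Nat.zero_le (k ^ 2), Nat.zero_le (k ^ 3), Nat.zero_le k]
  · have ha : 2 ≤ a := by omega
    refine ⟨a ^ 4 + 3 * a ^ 3 + 4 * a ^ 2 + 2 * a + 1, ⟨a + 2, by ring⟩, Nat.Coprime.mul_right ?_ ?_, ?_, ?_⟩
    · refine Nat.isCoprime_iff_coprime.1 ⟨1, -(a ^ 3 + 3 * a ^ 2 + 4 * a + 2), ?_⟩
      push_cast; ring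
    · refine Nat.coprime_of_dvd fun r hr h1 h2 => ?_
      have h3 : (r : ℤ) ∣ 5 := by
        have := (Int.natCast_dvd_natCast.2 h1).sub ((Int.natCast_dvd_natCast.2 h2).mul_right
          ((a + 2) ^ 3 - 5 * (a + 2) ^ 2 + 10 * (a + 2) - 10))
        exact this.trans (dvd_of_eq (by push_cast; ring))
      exact h5 (((Nat.prime_dvd_prime_iff_eq hr (by norm_num : Nat.Prime 5)).1 (by exact_mod_cast h3)) ▸ h2)
    · nlinarith [Nat.zero_le (a ^ 2), Nat.zero_le (a ^ 3), Nat.zero_le (a ^ 4)]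
    · nlinarith [Nat.zero_le (a ^ 3), Nat.zero_le (a ^ 4)]

variable {F : Type*} [Field F] [Fintype F]

theorem exists_gl {x : M5 F} {m : ℕ} (hm : 0 < m) (hx : orderOf x = m) :
    ∃ t : GL (Fin 5) F, (t : M5 F) = x ∧ orderOf t = m := by
  have hu : IsUnit x := IsUnit.of_pow_eq_one (hx ▸ pow_orderOf_eq_one x) hm.ne'
  exact ⟨hu.unit, rfl, by rw [← orderOf_units, hu.unit_spec, hx]⟩

theorem exists_sg {K : Subalgebra F (M5 F)} (hK : IsFieldSubalgebra 5 K) {m : ℕ} (h1 : m ∣ Fintype.card F ^ 5 - 1)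
    (h2 : m.Coprime (Fintype.card F - 1)) (h3 : 11 < m) : ∃ t, Sg K t m := by
  letI : Field K := (isField_of_inv hK.comm hK.inv).toField
  haveI := Fintype.ofFinite K
  obtain ⟨x, -, hx⟩ := H8.exists_orderOf_eq (F := K) (d := m) (by
    rwa [← Nat.card_eq_fintype_card, natCard_fieldSubalgebra hK])
  obtain ⟨t, ht, ho⟩ := exists_gl (x := (x : M5 F)) (m := m) (by omega)
    ((orderOf_injective K.val.toRingHom.toMonoidHom Subtype.val_injective x).trans hx)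
  exact ⟨t, hK, ht ▸ x.2, ho, h2, h3⟩

/-- the image modulo scalars -/
abbrev Qt (P : Subgroup (GL (Fin 5) F)) := P ⧸ (scalars (Fin 5) F).subgroupOf P

namespace Sg

variable {K : Subalgebra F (M5 F)} {t : GL (Fin 5) F} {m : ℕ} (h : Sg K t m)
include h

theorem not_sm {P : Subgroup (GL (Fin 5) F)} (hP : P ≤ specialLinear (Fin 5) F) (ht : ∀ x ∈ P, t * x * t⁻¹ ∈ P) :
    ¬ Sm (Nat.card (Qt P)) := fun ⟨h3, _, _, hd⟩ => by
  obtain ⟨a, ha⟩ := card_mod hP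
  have h1 := h.resid hP ht (l := 3) (Or.inr rfl) (ha ▸ h3.mul_right _) fun j hj hd' => by
    rw [ha] at hd'
    have h4 := (Nat.Coprime.pow _ _ (by norm_num : Nat.Coprime 3 5)).dvd_of_dvd_mul_right hd' |>.trans hd
    have h5 : j ≤ 4 := by
      by_contra hn
      have := (pow_dvd_pow 3 (show 5 ≤ j by omega)).trans h4
      norm_num at this
    interval_cases j <;> exact h.cop_small (by norm_num)
  rw [ha] at h1
  have h2 := ((Nat.Coprime.pow_right _ (h.cop_small (n := 5) (by norm_num))).dvd_of_dvd_mul_right h1).trans hd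
  rw [show 2 ^ 12 * 3 ^ 4 * 5 ^ 2 * 7 * 11 * 17 = (2 ^ 12 * 3 ^ 4 * 5 ^ 2 * 7 * 17) * 11 by norm_num] at h2
  have := Nat.le_of_dvd (by norm_num) ((h.cop_small (by norm_num)).dvd_of_dvd_mul_left h2)
  have := h.big
  omega

theorem not_m11 (hm : m = 121) (hF : Fintype.card F = 3) {P : Subgroup (GL (Fin 5) F)}
    (hP : P ≤ specialLinear (Fin 5) F) (ht : ∀ x ∈ P, t * x * t⁻¹ ∈ P) (hna : ¬ IsMulCommutative (Qt P)) :
    ¬ Spor.IsoM11 (Qt P) := fun ⟨e⟩ => by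
  subst hm
  obtain ⟨a, ha⟩ := card_mod hP
  have h2 : 2 ∣ Nat.card (Qt P) := by
    by_contra hn
    exact hna ⟨⟨SE.Kn.oc_M11.of_equiv e (Nat.odd_iff.2 (by omega))⟩⟩
  have hS : Nat.card (specialLinear (Fin 5) F) = 3 ^ 10 * 2 ^ 9 * 5 * 11 ^ 2 * 13 := by
    rw [specialLinear, H8.card_ker_det_eq_card_SL, H8.card_SL_eq 5 (by norm_num), hF]
    decide +kernel
  have h1 := h.resid hP ht (l := 2) (Or.inl rfl) (ha ▸ h2.mul_right _) fun j hj hd' => by
    have h4 := hd'.trans (Subgroup.card_dvd_of_le hP)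
    rw [hS] at h4
    have h5 : j ≤ 9 := by
      by_contra hn
      have := (pow_dvd_pow 2 (show 10 ≤ j by omega)).trans h4
      norm_num at this
    interval_cases j <;> norm_num
  haveI : Fact (Nat.Prime 11) := ⟨by norm_num⟩
  obtain ⟨Q, hQ⟩ := Sylow.exists_subgroup_card_pow_prime (G := P) 11 (n := 2) h1
  have hf : (Nat.card (specialLinear (Fin 5) F)).factorization 11 = 2 := by
    rw [hS]; decide +kernel
  let t' : specialLinear (Fin 5) F := ⟨t, h.sl⟩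
  have ht' : orderOf t' = 121 := by rw [← h.ord, ← Subgroup.orderOf_coe]
  let S1 := Sylow.ofCard (p := 11) (Subgroup.zpowers t') (by rw [Nat.card_zpowers, ht', hf]; rfl)
  let S2 := Sylow.ofCard (p := 11) (Q.map (Subgroup.inclusion hP)) (by
    rw [Subgroup.card_map_of_injective (Subgroup.inclusion_injective hP), hQ, hf])
  let z := Sylow.equiv S1 S2 ⟨t', Subgroup.mem_zpowers t'⟩
  have hz : orderOf z = 121 := by
    rw [MulEquiv.orderOf_eq, ← ht', ← Subgroup.orderOf_coe]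
  obtain ⟨x, -, hx⟩ := z.2
  have hx' : orderOf x = 121 := by
    rw [← hz, ← Subgroup.orderOf_coe z, ← hx, orderOf_injective _ (Subgroup.inclusion_injective hP)]
  set g : Equiv.Perm GolayPt := (e (x : Qt P)).1 with hg
  have g1 : g ^ 121 = 1 := by
    rw [hg, ← Subgroup.coe_pow, ← map_pow, ← QuotientGroup.mk_pow, ← hx', pow_orderOf_eq_one]; simp
  have g2 : g ^ 11 = 1 := Equiv.ext fun a => by
    have k1 : Function.minimalPeriod g a ∣ 11 ^ 2 := Function.IsPeriodicPt.minimalPeriod_dvd (by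
      rw [Function.IsPeriodicPt, Function.IsFixedPt, ← Equiv.Perm.coe_pow, show 11 ^ 2 = 121 from rfl, g1]; rfl)
    have k2 := Function.minimalPeriod_le_card (f := g) (x := a)
    obtain ⟨i, hi, k3⟩ := (Nat.dvd_prime_pow (by norm_num)).1 k1
    have k4 : Function.minimalPeriod g a ∣ 11 := by
      rw [k3] at k2 ⊢
      interval_cases i
      · simp
      · simp
      · simp at k2
    have := Function.isPeriodicPt_iff_minimalPeriod_dvd.2 k4
    rwa [Function.IsPeriodicPt, Function.IsFixedPt, ← Equiv.Perm.coe_pow] at this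
  have g3 : ((x ^ 11 : P) : Qt P) = 1 := e.injective (Subtype.ext (by
    rw [QuotientGroup.mk_pow, map_pow, Subgroup.coe_pow, ← hg, g2]; simp))
  have g4 : (x ^ 11) ^ 5 = 1 := Subtype.ext (scalar_five
    (Subgroup.mem_subgroupOf.1 ((QuotientGroup.eq_one_iff (x ^ 11)).1 g3)) (hP (x ^ 11).2))
  rw [← pow_mul, ← orderOf_dvd_iff_pow_eq_one, hx'] at g4
  norm_num at g4

end Sg

/-- residual maximal subgroups, linear case -/
def ResL (F : Type*) [Field F] [Fintype F] : Prop :=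
  ∀ H : Subgroup (GL (Fin 5) F), IsMaximalIn (specialLinear (Fin 5) F) H → InLinearResidualClass H →
    ∃ P, IsResidualCore H P ∧ (Sm (Nat.card (Qt P)) ∨ (Spor.IsoM11 (Qt P) ∧ Fintype.card F = 3))

/-- residual maximal subgroups, unitary case -/
def ResU (F : Type*) [Field F] [Fintype F] (q : ℕ) : Prop :=
  ∀ H : Subgroup (GL (Fin 5) F), IsMaximalIn (GU 5 F q ⊓ specialLinear (Fin 5) F) H → InUnitaryResidualClass H →
    ∃ P, IsResidualCore H P ∧ q.Prime ∧ Sm (Nat.card (Qt P)) ∧ (Nat.card (Qt P) = 660 ∨ q % 6 = 5)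

theorem c6_uni {R : Subgroup (GL (Fin 5) F)} (hs : IsSymplecticTypeGroup 5 R)
    (h : ActsAbsolutelyIrreducibly (matrixSet R)) (hc : Nat.card (Subgroup.center R) = 5) : C6 R :=
  ⟨(rdata hs h).1, (rdata hs h).2, hc⟩

theorem sl_singer (hr : ResL F) {K : Subalgebra F (M5 F)} (hK : IsFieldSubalgebra 5 K) :
    IsMaximalIn (specialLinear (Fin 5) F) (subalgebraNormalizer K ⊓ specialLinear (Fin 5) F) := by
  obtain ⟨m, h1, h2, h3, h4, h5⟩ := arith_sl (Fintype.one_lt_card (α := F))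
  obtain ⟨t, h⟩ := exists_sg hK h1 h2 h4
  refine max_of (lt_of_le_not_ge inf_le_right fun hle =>
    H5.SL.not_le_subalgebraNormalizer (by simp) (by norm_num) hK (hle.trans inf_le_left)) fun M hM hmax => ?_
  have ht : t ∈ M := hM ⟨h.norm, h.sl⟩
  rcases S5793.result M hmax with ⟨W, h0, h1, rfl⟩ | ⟨-, D, hD, rfl⟩ | ⟨K', hK', rfl⟩ | ⟨F₀, r, P, hr, hc, rfl⟩ |
    ⟨-, R, hR, rfl⟩ | ⟨ho, Q, hQ, rfl⟩ | ⟨σ, f, hf, rfl⟩ | hres
  · exact absurd ht.1 (h.not_stab h0 h1)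
  · exact absurd ht.1 (h.not_frame hD)
  · rw [h.eq_field hK' ht.1]
  · exfalso
    have k1 := h.subfield hc ht.1
    have k2 : 1 < Nat.card F₀ := Finite.one_lt_card
    generalize Nat.card F₀ = s at *
    have k3 := Nat.le_of_dvd (Nat.sub_pos_of_lt (Nat.one_lt_pow (by norm_num) k2)) k1
    have k4 : s ^ 8 ≤ Fintype.card F ^ 4 := by
      rw [hc, ← pow_mul]; exact Nat.pow_le_pow_right (by omega) (by have := hr.two_le; omega)
    have k5 : 2 ^ 3 ≤ s ^ 3 := Nat.pow_le_pow_left k2 3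
    have k6 : s ^ 8 = s ^ 5 * s ^ 3 := by ring
    have k7 : s ^ 5 * 8 ≤ s ^ 5 * s ^ 3 := Nat.mul_le_mul_left _ k5
    omega
  · exact absurd ht.1 (h.not_c6 (c6_lin hR))
  · exact absurd ht.1 (h.not_quad (odd_card_iff.1 ho) hQ)
  · exfalso
    have k1 := Nat.le_of_dvd (by omega) (h.uni hf ht.1)
    rw [card_eq_card_fixSub_sq hf.involutive hf.ne_refl] at h3
    have k2 : 1 < Nat.card (fixSub σ) := Finite.one_lt_card
    generalize Nat.card (fixSub σ) = s at *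
    have k5 : 2 ^ 3 ≤ s ^ 3 := Nat.pow_le_pow_left k2 3
    have k5' : 2 ^ 5 ≤ s ^ 5 := Nat.pow_le_pow_left k2 5
    have k6 : (s ^ 2) ^ 4 = s ^ 5 * s ^ 3 := by ring
    have k7 : s ^ 5 * 8 ≤ s ^ 5 * s ^ 3 := Nat.mul_le_mul_left _ k5
    omega
  · obtain ⟨P, hP, hs | ⟨hs, h3⟩⟩ := hr M hmax hres
    · exact absurd hs (h.not_sm (hP.le.trans hmax.1.le) (hP.normal t ht))
    · exact absurd hs (h.not_m11 (h5 h3) h3 (hP.le.trans hmax.1.le) (hP.normal t ht) hP.nonabelian)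

theorem su_singer {q : ℕ} (hF : Fintype.card F = q ^ 2) (hr : ResU F q) (hq : 3 ≤ q) {K : Subalgebra F (M5 F)}
    (hK : IsFieldSubalgebra 5 K) (ha : IsAdjointClosedFor (hermForm 5 F q) K) :
    IsMaximalIn (GU 5 F q ⊓ specialLinear (Fin 5) F)
      (subalgebraNormalizer K ⊓ (GU 5 F q ⊓ specialLinear (Fin 5) F)) := by
  obtain ⟨m, h1, h2, h3, h4⟩ := arith_su hq
  rw [hermForm_eq hF] at ha
  obtain ⟨x, hx, ho, hu, -⟩ := H5.SU.singer_data (m := 2) hF (herm_one hF) (qInv_ne hF) (by norm_num) hK ha h1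
    fun hd => by have := one_of dvd_rfl hd h2; omega
  obtain ⟨t, rfl, ho'⟩ := exists_gl (by omega) ho
  have h : Sg K t m := ⟨hK, hx, ho', hF ▸ h2, h4⟩
  rw [← hermForm_eq hF] at hu
  refine max_of (lt_of_le_not_ge inf_le_right fun hle =>
    H5.SU.not_le_subalgebraNormalizer (herm_one hF) (qInv_ne hF) (by simp) (by norm_num) hK
      (H5.SU.SUn_eq (n := 5) hF ▸ hle.trans inf_le_left)) fun M hM hmax => ?_
  have ht : t ∈ M := hM ⟨h.norm, hu, h.sl⟩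
  rcases S5796.result q hF M hmax with ⟨W, h0, h1, rfl⟩ | ⟨W, h0, -, h1, rfl⟩ | ⟨D, hD, rfl⟩ | ⟨-, K', hK', -, rfl⟩ |
    ⟨F₀, r, P, hp, hodd, hc, -, rfl⟩ | ⟨hodd, F₀, P, hc, -, rfl⟩ | ⟨p, R, -, -, -, r1, r2, -, -, r3, rfl⟩ | hres
  · refine absurd ht.1 (h.not_stab h0 ?_)
    rintro rfl
    have := h1 (Pi.single 0 1) trivial (Pi.single 0 1) trivial
    rw [hermForm_eq hF, gf_single] at this
    simp at this
  · refine absurd ht.1 (h.not_stab h0 ?_)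
    rintro rfl
    simp at h1
  · exact absurd ht.1 (h.not_frame hD.decomp)
  · rw [h.eq_field hK' ht.1]
  · exfalso
    have k1 := h.subfield hc ht.1
    have k2 : 1 < Nat.card F₀ := Finite.one_lt_card
    generalize Nat.card F₀ = s at *
    obtain ⟨k, rfl⟩ := hodd
    have k3 : s ^ k ∣ q := (Nat.pow_dvd_pow_iff two_ne_zero).1 ⟨s, by rw [← hF, hc]; ring⟩
    obtain ⟨u, rfl⟩ := k3
    obtain rfl : s = u ^ 2 := Nat.eq_of_mul_eq_mul_left (Nat.pow_pos (n := 2 * k) (by omega : 0 < s)) (by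
      rw [← pow_succ, ← hc, hF]; ring)
    have hu2 : 2 ≤ u := by
      by_contra hn
      have : u = 0 ∨ u = 1 := by omega
      rcases this with rfl | rfl <;> simp at k2
    have e : (u ^ 2) ^ 5 - 1 = (u ^ 5 + 1) * (u ^ 5 - 1) := by
      rw [← Nat.sq_sub_sq, ← pow_mul, ← pow_mul, one_pow]
    rw [e] at k1
    have k4 := Nat.le_of_dvd (by omega) (Nat.Coprime.dvd_of_dvd_mul_right (Nat.coprime_of_dvd fun l hl l1 l2 => by
      have l3 : l ∣ ((u ^ 2) ^ k * u) ^ 5 - 1 := l2.trans (by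
        have := Nat.sub_dvd_pow_sub_pow (u ^ 5) 1 (2 * k + 1)
        rwa [one_pow, show (u ^ 5) ^ (2 * k + 1) = ((u ^ 2) ^ k * u) ^ 5 by ring] at this)
      have l4 := Nat.dvd_sub (l1.trans h1) l3
      have l5 : 1 ≤ ((u ^ 2) ^ k * u) ^ 5 := Nat.one_le_pow _ _ (by omega)
      rw [show ∀ x : ℕ, 1 ≤ x → x + 1 - (x - 1) = 2 from fun x hx => by omega] at l4
      · exact hl.one_lt.ne' (one_of l1 l4 (h.cop_small (by norm_num)))
      · exact l5) k1)
    have hk : 1 ≤ k := by have := hp.two_le; omega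
    have k5 : u ^ 3 ≤ (u ^ 2) ^ k * u := by
      rw [← pow_mul, ← pow_succ]; exact Nat.pow_le_pow_right (by omega) (by omega)
    generalize (u ^ 2) ^ k * u = q at *
    have k6 : 2 ^ 3 ≤ u ^ 3 := Nat.pow_le_pow_left hu2 3
    have k7 : (u ^ 3) ^ 3 ≤ q ^ 3 := Nat.pow_le_pow_left k5 3
    have k8 : 7 * q ^ 3 ≤ (q - 1) * q ^ 3 := Nat.mul_le_mul_right _ (by omega)
    have k9 : u ^ 5 ≤ (u ^ 3) ^ 3 := by rw [← pow_mul]; exact Nat.pow_le_pow_right (by omega) (by omega)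
    have k10 : 2 ^ 5 ≤ u ^ 5 := Nat.pow_le_pow_left hu2 5
    omega
  · exfalso
    have k1 := h.subfield hc ht.1
    obtain rfl : q = Nat.card F₀ := Nat.pow_left_injective two_ne_zero (hF.symm.trans hc)
    have l4 := Nat.dvd_sub h1 k1
    have l5 : 1 ≤ Nat.card F₀ ^ 5 := Nat.one_le_pow _ _ (by omega)
    rw [show ∀ x : ℕ, 1 ≤ x → x + 1 - (x - 1) = 2 from fun x hx => by omega] at l4
    · have := Nat.le_of_dvd two_pos l4; omega
    · exact l5
  · exact absurd ht.1 (h.not_c6 (c6_uni r1 r2 r3))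
  · obtain ⟨P, hP, -, hs, -⟩ := hr M hmax hres
    exact absurd hs (h.not_sm (hP.le.trans (hmax.1.le.trans inf_le_right)) (hP.normal t ht))

end Cfsg.Agent.X5
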