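import Cfsg.Agent.X5.C

/-!
Normalisers of extraspecial groups of order 125.
-/

set_option autoImplicit false
set_option linter.unusedSectionVars false

namespace Cfsg.Agent.X5

open Module Cfsg.Geo Cfsg.Agent.Asch
open scoped MatrixGroups Matrix

variable {F : Type*} [Field F] [Fintype F]

/-- the Gauss sum element -/
def Dm (a b : F) (z : M5 F) : M5 F := 1 + a • z + b • z ^ 2 + b • z ^ 3 + a • z ^ 4

theorem phi5 {w : F} (h5 : w ^ 5 = 1) (h1 : w ≠ 1) : w ^ 4 + w ^ 3 + w ^ 2 + w + 1 = 0 :=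
  mul_left_cancel₀ (sub_ne_zero.2 h1) (by linear_combination h5)

theorem Dm_mul {w : F} (hw : w ^ 4 + w ^ 3 + w ^ 2 + w + 1 = 0) {z : M5 F} (hz : z ^ 5 = 1) :
    Dm (w ^ 3) (w ^ 2) z * Dm (w ^ 2) (w ^ 3) z = (5 : F) • 1 := by
  have e : ∀ k, z ^ (5 + k) = z ^ k := fun k => by rw [pow_add, hz, one_mul]
  have e6 : z ^ 6 = z := by simpa using e 1
  have e7 : z ^ 7 = z ^ 2 := e 2
  have e8 : z ^ 8 = z ^ 3 := e 3
  have e2 : z * z = z ^ 2 := (sq z).symm
  clear e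
  simp only [Dm, mul_add, add_mul, one_mul, mul_one, smul_mul_smul_comm, ← pow_add, ← pow_succ, ← pow_succ', e2,
    Nat.reduceAdd, hz, e6, e7, e8]
  match_scalars <;> grind

theorem Dm_tw {w : F} (hw : w ^ 4 + w ^ 3 + w ^ 2 + w + 1 = 0) {z g : M5 F} (hz : z ^ 5 = 1) {i : ℕ} (hi : i < 5)
    (h : g * z = w ^ i • (z * g)) :
    g * Dm (w ^ 2) (w ^ 3) z = w ^ (3 * i ^ 2) • (Dm (w ^ 2) (w ^ 3) z * (z ^ i * g)) := by
  have e : ∀ k, z ^ (5 + k) = z ^ k := fun k => by rw [pow_add, hz, one_mul]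
  have e6 : z ^ 6 = z := by simpa using e 1
  have e7 : z ^ 7 = z ^ 2 := e 2
  have e8 : z ^ 8 = z ^ 3 := e 3
  have e2 : z * z = z ^ 2 := (sq z).symm
  clear e
  have k : ∀ n : ℕ, g * z ^ n = (w ^ i) ^ n • (z ^ n * g) := fun n => by
    induction n with
    | zero => simp
    | succ n ih => rw [pow_succ, ← mul_assoc, ih, smul_mul_assoc, mul_assoc, h, mul_smul_comm, smul_smul, pow_succ, mul_assoc]
  rw [← mul_assoc]
  simp only [Dm, mul_add, mul_smul_comm, k, h, mul_one]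
  interval_cases i <;>
    simp only [add_mul, one_mul, mul_one, smul_mul_assoc, ← pow_add, ← pow_succ, ← pow_succ', e2, pow_zero, pow_one,
      Nat.reduceAdd, hz, e6, e7, e8] <;> match_scalars <;> grind

theorem pi_eq {a b : GL (Fin 5) F} {c : F} (h : (a : M5 F) = c • (b : M5 F)) :
    (a : GL (Fin 5) F ⧸ scalars (Fin 5) F) = b :=
  (QuotientGroup.eq.2 (mem_scalars_of (c := c) (by rw [Units.val_mul, h, mul_smul_comm, Units.inv_mul]))).symm

theorem card_qt (P : Subgroup (GL (Fin 5) F)) :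
    Nat.card (Qt P) = Nat.card (P.map (QuotientGroup.mk' (scalars (Fin 5) F))) := by
  rw [← MonoidHom.restrict_range, ← Subgroup.index_ker, MonoidHom.ker_restrict, QuotientGroup.ker_mk']; rfl

theorem qt_dvd {R P : Subgroup (GL (Fin 5) F)} (h : R ≤ P ⊔ scalars (Fin 5) F) : Nat.card (Qt R) ∣ Nat.card (Qt P) := by
  rw [card_qt, card_qt]
  refine Subgroup.card_dvd_of_le ?_
  rintro _ ⟨x, hx, rfl⟩
  obtain ⟨c, y, hy, rfl⟩ := exists_mul_of_mem_sup (h hx)
  exact ⟨y, hy, (pi_eq (coe_sc_mul c y)).symm⟩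

theorem exists_cfix {G : Type*} [Group G] [Finite G] {p : ℕ} [Fact p.Prime] {R P : Subgroup G} (hR : IsPGroup p R)
    (hT : ∀ t ∈ R, ∀ x ∈ P, t * x * t⁻¹ ∈ P) (hp : p ∣ Nat.card P) : ∃ y ∈ P, y ≠ 1 ∧ ∀ x ∈ R, x * y * x⁻¹ = y := by
  have hle : R ≤ Subgroup.normalizer (P : Set G) := fun t ht => Subgroup.mem_normalizer_iff.2 fun x =>
    ⟨hT t ht x, fun hx => by simpa [mul_assoc] using hT t⁻¹ (R.inv_mem ht) _ hx⟩
  letI : MulAction R P := MulAction.compHom P (P.normalizerMonoidHom.comp (Subgroup.inclusion hle))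
  obtain ⟨y, hy, h1⟩ := hR.exists_fixed_point_of_prime_dvd_card_of_fixed_point P hp (a := 1)
    fun x => Subtype.ext (show x.1 * 1 * x.1⁻¹ = 1 by simp)
  exact ⟨y, y.2, fun e => h1 (Subtype.ext e).symm, fun x hx => congrArg Subtype.val (hy ⟨x, hx⟩)⟩

/-- a group normalising `P` modulo scalars: fixed elements -/
theorem exists_cfix' {p : ℕ} [Fact p.Prime] {R P : Subgroup (GL (Fin 5) F)} (hR : IsPGroup p R)
    (hT : ∀ t ∈ R, ∀ x ∈ P, t * x * t⁻¹ ∈ P) (hp : p ∣ Nat.card (Qt P)) :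
    ∃ y ∈ P, y ∉ scalars (Fin 5) F ∧ ∀ x ∈ R, ∃ c : F, (x : M5 F) * y = c • ((y : M5 F) * x) := by
  rw [card_qt] at hp
  obtain ⟨_, ⟨y, hy, rfl⟩, h1, h2⟩ := exists_cfix (hR.map (QuotientGroup.mk' (scalars (Fin 5) F))) (by
    rintro _ ⟨t, ht, rfl⟩ _ ⟨x, hx, rfl⟩
    exact ⟨_, hT t ht x hx, rfl⟩) hp
  refine ⟨y, hy, fun e => h1 ((QuotientGroup.eq_one_iff y).2 e), fun x hx => exists_twist_of_mem
    ((QuotientGroup.eq_one_iff _).1 ?_)⟩
  exact mul_inv_eq_one.2 (h2 _ ⟨x, hx, rfl⟩)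

theorem frame_inj {D : Fin 5 → Submodule F (Fin 5 → F)} (hD : IsMDecomposition 1 D) : Function.Injective D :=
  hD.indep.injective fun i e => by have := hD.finrank_eq i; rw [e] at this; simp at this

/-- the action on a frame -/
noncomputable def fh {D : Fin 5 → Submodule F (Fin 5 → F)} (hD : IsMDecomposition 1 D) :
    decompositionStabilizer D →* Equiv.Perm (Fin 5) :=
  MonoidHom.mk' (fun g => g.2.choose) fun a b => Equiv.ext fun i => frame_inj hD (by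
    rw [← (a * b).2.choose_spec, Equiv.Perm.mul_apply, ← a.2.choose_spec, ← b.2.choose_spec, ← Submodule.map_comp,
      ← Matrix.toLin'_mul]
    rfl)

theorem fh_spec {D : Fin 5 → Submodule F (Fin 5 → F)} (hD : IsMDecomposition 1 D) (g : decompositionStabilizer D)
    (i : Fin 5) : (D i).map (Matrix.toLin' (g.1 : M5 F)) = D (fh hD g i) := g.2.choose_spec i

theorem map_scalar {g : GL (Fin 5) F} (hg : g ∈ scalars (Fin 5) F) (W : Submodule F (Fin 5 → F)) :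
    W.map (Matrix.toLin' (g : M5 F)) = W := by
  obtain ⟨c, hc⟩ := (mem_scalars_iff g).1 hg
  rw [hc, map_smul, Matrix.toLin'_one, Submodule.map_smul _ _ _ c.ne_zero, Submodule.map_id]

theorem quad_le {Q : (Fin 5 → F) → F} (hQ : IsNondegenerateQuadraticForm Q) :
    quadSimilarityGroup Q ≤ similarityGroup (gf (RingEquiv.refl F) (gramMatrix (QuadraticMap.polar Q))) := by
  rw [← (sesq_of_bilinear hQ.polar_bilinear).eq_gf]
  rintro g ⟨c, hc⟩
  refine ⟨c, fun x y => ?_⟩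
  simp only [QuadraticMap.polar, ← Matrix.mulVec_add, hc]
  ring

theorem twist_mem {F₀ : Subfield F} {P x y : GL (Fin 5) F} (hx : x ∈ subfieldSubgroup F₀ P)
    (hy : y ∈ subfieldSubgroup F₀ P) {w : F} (h : (x : M5 F) * y = w • ((y : M5 F) * x)) : w ∈ F₀ := by
  obtain ⟨c, X, hc, e1⟩ := (mem_subfieldSubgroup_iff F₀ P x).1 hx
  obtain ⟨d, Y, hd, e2⟩ := (mem_subfieldSubgroup_iff F₀ P y).1 hy
  have h1 := congrArg (cj P⁻¹) h
  rw [map_smul, map_mul, map_mul, e1, e2, smul_mul_smul_comm, smul_mul_smul_comm, mul_comm d, smul_comm,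
    ← Matrix.map_mul, ← Matrix.map_mul, ← Units.val_mul, ← Units.val_mul] at h1
  have h2 := smul_right_injective _ (mul_ne_zero hc hd) h1
  obtain ⟨i, j, hij⟩ : ∃ i j, ((Y * X : GL (Fin 5) F₀) : M5 F₀) i j ≠ 0 := by
    by_contra hn
    push Not at hn
    exact (Y * X).isUnit.ne_zero (Matrix.ext hn)
  have h3 := congrFun (congrFun h2 i) j
  simp only [Matrix.map_apply, Matrix.smul_apply, smul_eq_mul, Subfield.coe_subtype] at h3
  rw [eq_div_of_mul_eq (by simpa using hij) h3.symm]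
  exact div_mem (SetLike.coe_mem _) (SetLike.coe_mem _)

/-- `H` moves every line of `R` modulo scalars -/
def Mv (R H : Subgroup (GL (Fin 5) F)) : Prop :=
  ∀ L : Subgroup (GL (Fin 5) F), scalars (Fin 5) F ≤ L → (∀ h ∈ H, ∀ x ∈ L, h * x * h⁻¹ ∈ L) →
    ∀ y ∈ R, y ∈ L → y ∉ scalars (Fin 5) F → R ≤ L

namespace C6

variable {R : Subgroup (GL (Fin 5) F)} (hR : C6 R)
include hR

theorem qt : Nat.card (Qt R) = 25 := by rw [hR.rd.card_quotient]; simp

theorem pg : IsPGroup 5 R := fun x => ⟨1, Subtype.ext (by rw [pow_one]; exact hR.pw x x.2)⟩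

theorem smul_mem {g g' : GL (Fin 5) F} (hg : g ∈ R) {c : F} (hc : c ^ 5 = 1) (h : (g' : M5 F) = c • (g : M5 F)) :
    g' ∈ R := by
  obtain ⟨x, hx, y, hy, w, h1, h2, h3⟩ := hR.rd.exists_root (by simp)
  obtain ⟨j, -, rfl⟩ := (RData.isPrimitiveRoot_of_ne_one (by norm_num) h1 h2).eq_pow_of_pow_eq_one hc
  have : g' = (x * y * x⁻¹ * y⁻¹) ^ j * g := Units.ext (by
    rw [h, Units.val_mul, Units.val_pow_eq_pow_val, mem_of_twist h3, smul_pow, one_pow, smul_mul_assoc, one_mul])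
  rw [this]
  exact mul_mem (pow_mem (mul_mem (mul_mem (mul_mem hx hy) (inv_mem hx)) (inv_mem hy)) _) hg

theorem exists_D {x z : GL (Fin 5) F} (hx : x ∈ R) (hz : z ∈ R) {w : F} (h1 : w ≠ 1)
    (h : (x : M5 F) * z = w • ((z : M5 F) * x)) : ∃ D ∈ subgroupNormalizer R, (D : M5 F) = Dm (w ^ 2) (w ^ 3) z ∧
      D * z = z * D ∧ ((D⁻¹ * x * D : GL (Fin 5) F) : M5 F) = w ^ 3 • ((z * x : GL (Fin 5) F) : M5 F) := by
  have h5 := hR.rd.twist_pow hx h
  have hw := phi5 h5 h1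
  have hz5 : (z : M5 F) ^ 5 = 1 := congrArg Units.val (hR.pw z hz)
  have hu : IsUnit (Dm (w ^ 2) (w ^ 3) (z : M5 F)) := isUnit_of_mul_isUnit_right (by
    rw [Dm_mul hw hz5]
    exact isUnit_smul_of_ne_zero (by simpa using hR.rd.cast_ne_zero (by simp)) isUnit_one)
  obtain ⟨D, hD⟩ := hu
  have key : ∀ (g : GL (Fin 5) F) (i : ℕ), i < 5 → (g : M5 F) * z = w ^ i • ((z : M5 F) * g) →
      ((D⁻¹ * g * D : GL (Fin 5) F) : M5 F) = w ^ (3 * i ^ 2) • ((z ^ i * g : GL (Fin 5) F) : M5 F) := fun g i hi e => by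
    have := Dm_tw hw hz5 hi e
    rw [← hD] at this
    rw [mul_assoc, Units.val_mul, Units.val_mul, this, mul_smul_comm, Units.inv_mul_cancel_left]
    simp
  refine ⟨D, ?_, hD, ?_, by simpa using key x 1 (by norm_num) (by simpa using h)⟩
  · refine (inv_mem_iff (x := D)).1 (Subgroup.mem_normalizer_fintype fun g hg => ?_)
    obtain ⟨c, hc⟩ := hR.rd.comm g hg z hz
    obtain ⟨i, hi, rfl⟩ := (RData.isPrimitiveRoot_of_ne_one (by norm_num) h1 h5).eq_pow_of_pow_eq_one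
      (hR.rd.twist_pow hg hc)
    rw [inv_inv]
    exact hR.smul_mem (mul_mem (pow_mem hz i) hg) (by rw [← pow_mul, mul_comm, pow_mul, h5, one_pow]) (key g i hi hc)
  · have := key z 0 (by norm_num) (by simp)
    have e : D⁻¹ * z * D = z := Units.ext (by simpa using this)
    rw [← e, ← mul_assoc, ← mul_assoc, mul_inv_cancel, one_mul, e]

theorem tw' {y : GL (Fin 5) F} (hy : y ∈ R) (hs : y ∉ scalars (Fin 5) F) :
    ∃ x ∈ R, ∃ w : F, w ≠ 1 ∧ (x : M5 F) * y = w • ((y : M5 F) * x) := by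
  obtain ⟨x, hx, c, h1, h⟩ := hR.rd.exists_twist hy hs
  have h0 : c ≠ 0 := by
    rintro rfl
    exact (y * x).isUnit.ne_zero (by rw [Units.val_mul, h, zero_smul])
  exact ⟨x, hx, c⁻¹, by simpa using h1, by rw [h, smul_smul, inv_mul_cancel₀ h0, one_smul]⟩

theorem le_sl : R ≤ specialLinear (Fin 5) F := fun z hz => by
  rw [mem_SL]
  by_cases hs : z ∈ scalars (Fin 5) F
  · obtain ⟨c, hc⟩ := (mem_scalars_iff z).1 hs
    have h1 := congrArg Units.val (hR.pw z hz)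
    rw [Units.val_pow_eq_pow_val, hc, smul_pow, one_pow, Units.val_one, ← one_smul F (1 : M5 F), smul_smul,
      mul_one] at h1
    rw [hc, Matrix.det_smul, Matrix.det_one, mul_one, Fintype.card_fin]
    exact smul_one_injective h1
  · obtain ⟨x, hx, w, h1, h⟩ := hR.tw' hz hs
    obtain ⟨D, -, -, -, e⟩ := hR.exists_D hx hz h1 h
    have h2 := congrArg Matrix.det e
    rw [Matrix.det_smul, Fintype.card_fin, ← pow_mul, mul_comm 3, pow_mul, hR.rd.twist_pow hx h, one_pow, one_mul,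
      Units.val_mul, Units.val_mul, Units.val_mul, Matrix.det_units_conj', Matrix.det_mul] at h2
    exact (mul_left_eq_self₀.1 h2.symm).resolve_right (Matrix.GeneralLinearGroup.det_ne_zero x)

theorem mv {S H : Subgroup (GL (Fin 5) F)}
    (hS : ∀ x ∈ R, ∀ z ∈ R, ∀ w : F, w ≠ 1 → (x : M5 F) * z = w • ((z : M5 F) * x) → ∀ D : GL (Fin 5) F,
      (D : M5 F) = Dm (w ^ 2) (w ^ 3) z → D ∈ S)
    (hH : ∀ A ∈ subgroupNormalizer R ⊓ S, ∀ B ∈ subgroupNormalizer R ⊓ S, A * B * A⁻¹ * B⁻¹ ∈ H) : Mv R H := by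
  intro L hZ hL y hy hyL hs
  have key : ∀ x ∈ R, ∀ w : F, w ≠ 1 → (x : M5 F) * y = w • ((y : M5 F) * x) → x ∈ L := fun x hx w h1 h => by
    have h0 : w ≠ 0 := by
      rintro rfl
      exact (x * y).isUnit.ne_zero (by rw [Units.val_mul, h, zero_smul])
    have h' : (y : M5 F) * x = w⁻¹ • ((x : M5 F) * y) := by rw [h, smul_smul, inv_mul_cancel₀ h0, one_smul]
    obtain ⟨A, a1, a2, a3, a4⟩ := hR.exists_D hx hy h1 h
    obtain ⟨B, b1, b2, b3, b4⟩ := hR.exists_D hy hx (by simpa using h1) h'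
    have k := hL _ (hH A ⟨a1, hS x hx y hy w h1 h A a2⟩ B ⟨b1, hS y hy x hx _ (by simpa using h1) h' B b2⟩) y hyL
    have e : ((A * B * A⁻¹ * B⁻¹ * y * (A * B * A⁻¹ * B⁻¹)⁻¹ : GL (Fin 5) F) : GL (Fin 5) F ⧸ scalars (Fin 5) F) =
        (x⁻¹ * y * y * y : GL (Fin 5) F) := by
      have c1 := pi_eq a4
      have c2 := pi_eq b4
      have c3 := congrArg (QuotientGroup.mk (s := scalars (Fin 5) F)) a3
      have c4 := congrArg (QuotientGroup.mk (s := scalars (Fin 5) F)) b3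
      simp only [QuotientGroup.mk_mul, QuotientGroup.mk_inv] at *
      generalize (A : GL (Fin 5) F ⧸ scalars (Fin 5) F) = A at *
      generalize (B : GL (Fin 5) F ⧸ scalars (Fin 5) F) = B at *
      generalize (x : GL (Fin 5) F ⧸ scalars (Fin 5) F) = X at *
      generalize (y : GL (Fin 5) F ⧸ scalars (Fin 5) F) = Y at *
      have d1 : A⁻¹ * Y * A = Y := by rw [mul_assoc, ← c3, inv_mul_cancel_left]
      have d2 : A * Y * A⁻¹ = Y := by rw [c3, mul_inv_cancel_right]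
      have d3 : B * X * B⁻¹ = X := by rw [c4, mul_inv_cancel_right]
      have d4 : A * X * A⁻¹ = Y⁻¹ * X := by
        calc A * X * A⁻¹ = Y⁻¹ * ((A * Y * A⁻¹) * (A * X * A⁻¹)) := by rw [d2]; group
          _ = Y⁻¹ * (A * (A⁻¹ * X * A) * A⁻¹) := by rw [c1]; group
          _ = _ := by group
      have d5 : B * Y * B⁻¹ = X⁻¹ * Y := by
        calc B * Y * B⁻¹ = X⁻¹ * ((B * X * B⁻¹) * (B * Y * B⁻¹)) := by rw [d3]; group
          _ = X⁻¹ * (B * (B⁻¹ * Y * B) * B⁻¹) := by rw [c2]; group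
          _ = _ := by group
      calc _ = A * B * (A⁻¹ * (B⁻¹ * Y * B) * A) * B⁻¹ * A⁻¹ := by group
        _ = A * B * ((A⁻¹ * X * A) * (A⁻¹ * Y * A)) * B⁻¹ * A⁻¹ := by rw [c2]; group
        _ = A * ((B * Y * B⁻¹) * (B * X * B⁻¹) * (B * Y * B⁻¹)) * A⁻¹ := by rw [c1, d1]; group
        _ = (A * X * A⁻¹)⁻¹ * (A * Y * A⁻¹) * (A * Y * A⁻¹) := by rw [d3, d5]; group
        _ = _ := by rw [d2, d4]; group
    have k2 := mul_mem k (hZ (QuotientGroup.eq.1 e))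
    rw [mul_inv_cancel_left] at k2
    exact inv_mem_iff.1 ((mul_mem_cancel_right hyL).1 ((mul_mem_cancel_right hyL).1 ((mul_mem_cancel_right hyL).1 k2)))
  obtain ⟨x, hx, w, h1, h⟩ := hR.tw' hy hs
  intro g hg
  obtain ⟨c, hc⟩ := hR.rd.comm g hg y hy
  by_cases h2 : c = 1
  · refine (mul_mem_cancel_right (key x hx w h1 h)).1 (key _ (mul_mem hg hx) w h1 ?_)
    rw [h2, one_smul] at hc
    rw [Units.val_mul, mul_assoc, h, mul_smul_comm, ← mul_assoc, hc, mul_assoc]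
  · exact key g hg c h2 hc

theorem common {P : Subgroup (GL (Fin 5) F)} (hT : ∀ t ∈ R, ∀ x ∈ P, t * x * t⁻¹ ∈ P) (h5 : 5 ∣ Nat.card (Qt P)) :
    ∃ y ∈ R, y ∈ P ⊔ scalars (Fin 5) F ∧ y ∉ scalars (Fin 5) F := by
  haveI : Fact (Nat.Prime 5) := ⟨by norm_num⟩
  obtain ⟨y, hy, hs, h⟩ := exists_cfix' hR.pg hT h5
  obtain ⟨g, hg, ht⟩ : ∃ g ∈ R, ((y : M5 F) * g).trace ≠ 0 := by
    by_contra hn
    push Not at hn
    exact y.isUnit.ne_zero (hR.rd.abs.eq_zero_of_trace hn)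
  have h1 : y * g ∈ scalars (Fin 5) F := hR.rd.abs.mem_scalars_of_comm fun x hx => by
    obtain ⟨c, hc⟩ := h x hx
    obtain ⟨d, hd⟩ := hR.rd.comm x hx g hg
    have e : (x : M5 F) * (y * g) = (c * d) • ((y : M5 F) * g * x) := by
      rw [← mul_assoc, hc, smul_mul_assoc, mul_assoc, hd, mul_smul_comm, smul_smul, mul_assoc]
    have e2 : cj x ((y : M5 F) * g) = (c * d) • ((y : M5 F) * g) := by
      rw [cj_apply, e, smul_mul_assoc, mul_assoc, Units.mul_inv, mul_one]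
    have e3 := congrArg Matrix.trace e2
    rw [trace_cj, Matrix.trace_smul, smul_eq_mul] at e3
    rw [(mul_left_eq_self₀.1 e3.symm).resolve_right ht, one_smul] at e
    exact Units.ext e.symm
  refine ⟨g, hg, ?_, fun h => hs ((mul_mem_cancel_right h).1 h1)⟩
  exact (mul_mem_cancel_left (Subgroup.mem_sup_left hy)).1 (Subgroup.mem_sup_right h1)

theorem le_sup {H M P : Subgroup (GL (Fin 5) F)} (hm : Mv R H) (hRM : R ≤ M) (hHM : H ≤ M)
    (hT : ∀ t ∈ M, ∀ x ∈ P, t * x * t⁻¹ ∈ P) (h5 : 5 ∣ Nat.card (Qt P)) : R ≤ P ⊔ scalars (Fin 5) F := by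
  obtain ⟨y, h1, h2, h3⟩ := hR.common (fun t ht => hT t (hRM ht)) h5
  refine hm _ le_sup_right (fun h hh x hx => ?_) y h1 h2 h3
  obtain ⟨c, x, hx', rfl⟩ := exists_mul_of_mem_sup hx
  rw [← mul_assoc, ← scalars_comm (sc_mem c), mul_assoc, mul_assoc, ← mul_assoc h]
  exact sc_mul_mem_sup (hT h (hHM hh) x hx') c

theorem eq_of {H M R' : Subgroup (GL (Fin 5) F)} (hm : Mv R H) (hRM : R ≤ M) (hHM : H ≤ M) (hR' : C6 R')
    (hT : M ≤ subgroupNormalizer R') : R = R' := by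
  have := hR.le_sup hm hRM hHM (P := R') (fun t ht x hx => (Subgroup.mem_normalizer_iff.1 (hT ht) x).1 hx)
    (by rw [hR'.qt]; norm_num)
  refine Subgroup.eq_of_le_of_card_ge (fun g hg => ?_) (by rw [hR.card, hR'.card])
  obtain ⟨c, x, hx, rfl⟩ := exists_mul_of_mem_sup (this hg)
  have h1 := hR.pw _ hg
  rw [sc_mul_pow, hR'.pw x hx, mul_one, ← map_one (sc (Fin 5))] at h1
  exact hR'.smul_mem hx (by simpa using congrArg Units.val (sc_injective h1)) (coe_sc_mul c x)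

theorem not_sm {H M P : Subgroup (GL (Fin 5) F)} (hm : Mv R H) (hRM : R ≤ M) (hHM : H ≤ M)
    (hT : ∀ t ∈ M, ∀ x ∈ P, t * x * t⁻¹ ∈ P) : ¬ Sm (Nat.card (Qt P)) := fun ⟨_, h5, h25, _⟩ =>
  h25 (hR.qt ▸ qt_dvd (hR.le_sup hm hRM hHM hT h5))

theorem exists_ker {Γ : Type*} [Group Γ] [Finite Γ] (φ : R →* Γ) (h : ¬ 25 ∣ Nat.card Γ) :
    ∃ y : R, φ y = 1 ∧ y.1 ∉ scalars (Fin 5) F := by
  by_contra hn
  push Not at hn
  have h1 : φ.ker ≤ (scalars (Fin 5) F).subgroupOf R := fun y hy => hn y hy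
  have h2 := Subgroup.index_dvd_of_le h1
  rw [Subgroup.index_ker, show ((scalars (Fin 5) F).subgroupOf R).index = 25 from hR.qt] at h2
  exact h (h2.trans (Subgroup.card_subgroup_dvd_card _))

theorem not_stab {W : Submodule F (Fin 5 → F)} (h0 : W ≠ ⊥) (h1 : W ≠ ⊤) : ¬ R ≤ subspaceStabilizer W := fun h => by
  rcases hR.rd.abs.irred W (fun g hg v hv => (h hg v).1 hv) with h | h <;> contradiction

theorem not_frame {H : Subgroup (GL (Fin 5) F)} (hm : Mv R H) {D : Fin 5 → Submodule F (Fin 5 → F)}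
    (hD : IsMDecomposition 1 D) (h1 : R ≤ decompositionStabilizer D) : ¬ H ≤ decompositionStabilizer D := fun h2 => by
  obtain ⟨y, hy, hs⟩ := hR.exists_ker ((fh hD).comp (Subgroup.inclusion h1)) (by
    rw [Nat.card_eq_fintype_card, Fintype.card_perm]; decide)
  have := hm ((fh hD).ker.map (Subgroup.subtype _)) (fun g hg => ⟨⟨g, 1, fun i => map_scalar hg _⟩,
    Equiv.ext fun i => frame_inj hD ((fh_spec hD _ i).symm.trans (map_scalar hg _)), rfl⟩) (by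
      rintro h hh _ ⟨x, hx, rfl⟩
      exact ⟨_, (fh hD).normal_ker.conj_mem x hx ⟨h, h2 hh⟩, rfl⟩) y y.2 ⟨_, hy, rfl⟩ hs
  have h3 := hD.finrank_eq 0
  rcases hR.rd.abs.irred (D 0) (fun g hg v hv => by
    obtain ⟨x, hx, rfl⟩ := this hg
    have := fh_spec hD x 0
    rw [show fh hD x = 1 from hx, Equiv.Perm.one_apply] at this
    exact this ▸ Submodule.mem_map_of_mem hv) with h | h <;> rw [h] at h3 <;> simp at h3

theorem not_field {K : Subalgebra F (M5 F)} (hK : IsFieldSubalgebra 5 K) : ¬ R ≤ subalgebraNormalizer K := fun h => by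
  letI : Field K := (isField_of_inv hK.comm hK.inv).toField
  haveI := Fintype.ofFinite K
  let φ : R → K →ₐ[F] K := fun g => ((cj g.1).toAlgHom.comp K.val).codRestrict K fun k => (h g.2 k).1 k.2
  let ψ : R →* (K ≃ₐ[F] K) := MonoidHom.mk'
    (fun g => AlgEquiv.ofBijective (φ g) (Finite.injective_iff_bijective.1 (φ g).toRingHom.injective))
    fun a b => AlgEquiv.ext fun k => Subtype.ext (cj_mul a.1 b.1 k)
  obtain ⟨y, hy, hs⟩ := hR.exists_ker ψ (by rw [IsGalois.card_aut_eq_finrank, hK.finrank_eq]; norm_num)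
  have h1 : (y.1 : M5 F) ∈ K := mem_of_comm_singer (by simpa using hK) fun k hk =>
    (cj_eq_self_iff _ _).1 (congrArg Subtype.val (DFunLike.congr_fun hy (⟨k, hk⟩ : K)) :)
  obtain ⟨c, hc⟩ := scal hK h1 (l := 5) (by norm_num) le_rfl (congrArg Units.val (hR.pw y y.2))
  exact hs (mem_scalars_of hc)

theorem subfield {F₀ : Subfield F} {P : GL (Fin 5) F} (h : R ≤ subfieldSubgroup F₀ P) : 5 ∣ Nat.card F₀ - 1 := by
  obtain ⟨x, hx, y, hy, w, h1, h2, h3⟩ := hR.rd.exists_root (by simp)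
  haveI := Fintype.ofFinite F₀
  have h0 : w ≠ 0 := by rintro rfl; simp at h2
  have := FiniteField.pow_card_sub_one_eq_one (⟨w, twist_mem (h hx) (h hy) h3⟩ : F₀) fun e => h0 (congrArg Subtype.val e)
  rw [Nat.card_eq_fintype_card]
  exact (RData.isPrimitiveRoot_of_ne_one (by norm_num) h1 h2).dvd_of_pow_eq_one _ (congrArg Subtype.val this)

end C6

theorem comm_mem {G : Type*} [Group G] {H : Subgroup G} {A B : G} (hA : A ∈ H) (hB : B ∈ H) :
    A * B * A⁻¹ * B⁻¹ ∈ H := mul_mem (mul_mem (mul_mem hA hB) (inv_mem hA)) (inv_mem hB)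

theorem comm_sl (A B : GL (Fin 5) F) : A * B * A⁻¹ * B⁻¹ ∈ specialLinear (Fin 5) F := by
  rw [specialLinear, MonoidHom.mem_ker]
  simp

theorem sl_c6 (hr : ResL F) {p : ℕ} (hp : p.Prime) (hF : Fintype.card F = p) (h5 : p % 5 = 1)
    {R : Subgroup (GL (Fin 5) F)} (hd : IsLinearSymplecticTypeData 5 R) :
    IsMaximalIn (specialLinear (Fin 5) F) (subgroupNormalizer R ⊓ specialLinear (Fin 5) F) := by
  have hR := c6_lin hd
  have hm : Mv R (subgroupNormalizer R ⊓ specialLinear (Fin 5) F) := hR.mv (S := ⊤) (fun _ _ _ _ _ _ _ _ _ => trivial)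
    fun A hA B hB => ⟨comm_mem hA.1 hB.1, comm_sl A B⟩
  refine max_of (lt_of_le_not_ge inf_le_right fun hle =>
    H5.SL.not_le_subgroupNormalizer (by simp) hd (hle.trans inf_le_left)) fun M hM hmax => ?_
  have hRM : R ≤ M := (le_inf Subgroup.le_normalizer hR.le_sl).trans hM
  have np : ∀ a b : ℕ, 2 ≤ b → Fintype.card F ≠ a ^ b := fun a b hb e => by
    rw [hF] at e
    exact Nat.Prime.not_prime_pow hb (e ▸ hp)
  rcases S5793.result M hmax with ⟨W, h0, h1, rfl⟩ | ⟨-, D, hD, rfl⟩ | ⟨K', hK', rfl⟩ | ⟨F₀, r, P, hr, hc, rfl⟩ |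
    ⟨-, R', hR', rfl⟩ | ⟨ho, Q, hQ, rfl⟩ | ⟨σ, f, hf, rfl⟩ | hres
  · exact absurd (hRM.trans inf_le_left) (hR.not_stab h0 h1)
  · exact absurd (hM.trans inf_le_left) (hR.not_frame hm hD (hRM.trans inf_le_left))
  · exact absurd (hRM.trans inf_le_left) (hR.not_field hK')
  · exact absurd hc (np _ _ hr.two_le)
  · rw [hR.eq_of hm hRM hM (c6_lin hR') inf_le_left]
  · exact absurd (hR.rd.eq_two (by simp) ((sesq_of_bilinear hQ.polar_bilinear).isUnit_gram hQ.nondegenerate)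
      ((hRM.trans inf_le_left).trans (quad_le hQ))) (by norm_num)
  · exact absurd (card_eq_card_fixSub_sq hf.involutive hf.ne_refl) (np _ _ le_rfl)
  · obtain ⟨P, hP, hs | ⟨hs, h3⟩⟩ := hr M hmax hres
    · exact absurd hs (hR.not_sm hm hRM hM hP.normal)
    · omega

theorem c6_le_gu {q : ℕ} (hF : Fintype.card F = q ^ 2) (h5 : q % 5 = 4) {R : Subgroup (GL (Fin 5) F)} (hR : C6 R)
    (hs : R ≤ similarityGroup (hermForm 5 F q)) : R ≤ GU 5 F q := fun z hz => by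
  obtain ⟨c, hc⟩ := hs hz
  have e1 : hermForm 5 F q (Pi.single 0 1) (Pi.single 0 1) = 1 := by rw [hermForm_eq hF, gf_single]; simp
  have h1 := sim_pow (g := z) (c := c)
    (fun x (a : (Fin 5 → F) × (Fin 5 → F)) => hermForm 5 F q (x *ᵥ a.1) (x *ᵥ a.2))
    (fun x y a _ => ⟨(y *ᵥ a.1, y *ᵥ a.2), by simp, by simp⟩) (by simpa using hc) 5 (Pi.single 0 1, Pi.single 0 1)
  simp only [hR.pw z hz, Units.val_one, Matrix.one_mulVec, e1, mul_one] at h1
  have h2 := hc (Pi.single 0 1) (Pi.single 0 1)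
  rw [e1, mul_one, hermForm_eq hF] at h2
  have h3 : (c : F) ^ q = c := by
    rw [← qInv_apply hF, ← h2]
    exact (one_mul _).symm.trans ((herm_one hF).gf_swap' _ _).symm
  have h4 : (c : F) = 1 := by
    obtain ⟨k, rfl⟩ : ∃ k, q = 5 * k + 4 := ⟨q / 5, by omega⟩
    rw [pow_add, pow_mul, ← h1, one_pow, one_mul] at h3
    have h5 : (c : F) ^ 3 = 1 := mul_right_cancel₀ c.ne_zero (by rw [← pow_succ, h3, one_mul])
    exact (pow_eq_one_iff_of_coprime (by norm_num : Nat.Coprime 3 5)).1 ⟨h5, h1.symm⟩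
  intro u v
  simpa [h4] using hc u v

theorem comm_gu {q : ℕ} {A B : GL (Fin 5) F} (hA : A ∈ similarityGroup (hermForm 5 F q))
    (hB : B ∈ similarityGroup (hermForm 5 F q)) : A * B * A⁻¹ * B⁻¹ ∈ GU 5 F q := by
  obtain ⟨a, ha⟩ := hA
  obtain ⟨b, hb⟩ := hB
  intro u v
  obtain ⟨u, rfl⟩ : ∃ u', ((B * A : GL (Fin 5) F) : M5 F) *ᵥ u' = u := ⟨_, mulVec_inv_mulVec _ u⟩
  obtain ⟨v, rfl⟩ : ∃ u', ((B * A : GL (Fin 5) F) : M5 F) *ᵥ u' = v := ⟨_, mulVec_inv_mulVec _ v⟩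
  have e : ∀ u, ((A * B * A⁻¹ * B⁻¹ : GL (Fin 5) F) : M5 F) *ᵥ ((B * A : GL (Fin 5) F) : M5 F) *ᵥ u =
      (A : M5 F) *ᵥ (B : M5 F) *ᵥ u := fun u => by
    rw [Matrix.mulVec_mulVec, Matrix.mulVec_mulVec, ← Units.val_mul, ← Units.val_mul]
    congr 2; group
  change hermForm 5 F q (((A * B * A⁻¹ * B⁻¹ : GL (Fin 5) F) : M5 F) *ᵥ _)
    (((A * B * A⁻¹ * B⁻¹ : GL (Fin 5) F) : M5 F) *ᵥ _) = _
  rw [e, e, Units.val_mul, ← Matrix.mulVec_mulVec, ← Matrix.mulVec_mulVec, ha, hb, hb, ha, mul_left_comm]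

theorem su_c6 {q : ℕ} (hF : Fintype.card F = q ^ 2) (hr : ResU F q) {p : ℕ} (hp : p.Prime)
    (hq : (q = p ∧ p % 5 = 4) ∨ (q = p ^ 2 ∧ (p % 5 = 2 ∨ p % 5 = 3)))
    {R : Subgroup (GL (Fin 5) F)} (hR : C6 R) (hs : R ≤ similarityGroup (hermForm 5 F q)) :
    IsMaximalIn (GU 5 F q ⊓ specialLinear (Fin 5) F)
      (subgroupNormalizer R ⊓ (GU 5 F q ⊓ specialLinear (Fin 5) F)) := by
  have h5 : q % 5 = 4 := by
    rcases hq with ⟨rfl, h⟩ | ⟨rfl, h | h⟩
    · exact h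
    · rw [Nat.pow_mod, h]
    · rw [Nat.pow_mod, h]
  have hU := c6_le_gu hF h5 hR hs
  have hm : Mv R (subgroupNormalizer R ⊓ (GU 5 F q ⊓ specialLinear (Fin 5) F)) := by
    refine hR.mv (S := similarityGroup (hermForm 5 F q)) (fun x hx z hz w h1 h D hD => ?_) fun A hA B hB =>
      ⟨comm_mem hA.1 hB.1, comm_gu hA.2 hB.2, comm_sl A B⟩
    have w5 := hR.rd.twist_pow hx h
    have hz5 : (z : M5 F) ^ 5 = 1 := congrArg Units.val (hR.pw z hz)
    have a1 : adj (qInv hF) 1 (z : M5 F) = (z : M5 F) ^ 4 := by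
      rw [adj_of_fixes isUnit_one (fixesGram_of_le_GU hF hU z hz), ← Units.val_pow_eq_pow_val,
        inv_eq_of_mul_eq_one_right (by rw [← pow_succ', hR.pw z hz])]
    have a2 : (qInv hF).symm w = w ^ 4 := by
      obtain ⟨k, rfl⟩ : ∃ k, q = 5 * k + 4 := ⟨q / 5, by omega⟩
      rw [(herm_one (ι := Fin 5) hF).symm_eq, qInv_apply, pow_add, pow_mul, w5, one_pow, one_mul]
    have a3 : adj (qInv hF) 1 (D : M5 F) = Dm (w ^ 3) (w ^ 2) z := by
      have e : ∀ k, (z : M5 F) ^ k = (z : M5 F) ^ (k % 5) := fun k => pow_eq_pow_mod k hz5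
      have e' : ∀ k, w ^ k = w ^ (k % 5) := fun k => pow_eq_pow_mod k w5
      simp only [hD, Dm, adj_add, adj_smul, adj_pow isUnit_one, adj_one isUnit_one, a1, map_pow, a2, ← pow_mul,
        Nat.reduceMul]
      rw [e 8, e 12, e 16, e' 8, e' 12]
      simp only [Nat.reduceMod, pow_one]
      abel
    rw [hermForm_eq hF]
    refine ⟨Units.mk0 (5 : F) (by simpa using hR.rd.cast_ne_zero (by simp)), fun u v => ?_⟩
    rw [(herm_one hF).gf_adj', a3, hD, Matrix.mulVec_mulVec, Dm_mul (phi5 w5 h1) hz5, Matrix.smul_mulVec,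
      Matrix.one_mulVec, (sesq_gf _ _).smul_left]
    rfl
  refine max_of (lt_of_le_not_ge inf_le_right fun hle =>
    H5.SU.not_le_subgroupNormalizer (herm_one hF) (qInv_ne hF) (by simp) (Or.inl (by simp)) hR.rd
      (H5.SU.SUn_eq (n := 5) hF ▸ hle.trans inf_le_left)) fun M hM hmax => ?_
  have hRM : R ≤ M := (le_inf Subgroup.le_normalizer (le_inf hU hR.le_sl)).trans hM
  rcases S5796.result q hF M hmax with ⟨W, h0, h1, rfl⟩ | ⟨W, h0, -, h1, rfl⟩ | ⟨D, hD, rfl⟩ | ⟨-, K', hK', -, rfl⟩ |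
    ⟨F₀, r, P, hr, hodd, hc, -, rfl⟩ | ⟨hodd, F₀, P, hc, -, rfl⟩ | ⟨p, R', -, -, -, r1, r2, -, -, r3, rfl⟩ | hres
  · refine absurd (hRM.trans inf_le_left) (hR.not_stab h0 ?_)
    rintro rfl
    have := h1 (Pi.single 0 1) trivial (Pi.single 0 1) trivial
    rw [hermForm_eq hF, gf_single] at this
    simp at this
  · refine absurd (hRM.trans inf_le_left) (hR.not_stab h0 ?_)
    rintro rfl
    simp at h1
  · exact absurd (hM.trans inf_le_left) (hR.not_frame hm hD.decomp (hRM.trans inf_le_left))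
  · exact absurd (hRM.trans inf_le_left) (hR.not_field hK')
  · exfalso
    have k1 : Nat.card F₀ ^ r ∣ p ^ 4 := by
      rw [← hc, hF]
      rcases hq with ⟨rfl, -⟩ | ⟨rfl, -⟩
      · exact pow_dvd_pow _ (by norm_num)
      · rw [← pow_mul]
    obtain ⟨a, -, ha⟩ := (Nat.dvd_prime_pow hp).1 ((dvd_pow_self _ hr.ne_zero).trans k1)
    rw [ha, hF, ← pow_mul] at hc
    have k2 : r ∣ 2 ^ 2 := by
      rcases hq with ⟨rfl, -⟩ | ⟨rfl, -⟩
      · exact Dvd.dvd.mul_right (Dvd.intro_left a (Nat.pow_right_injective hp.two_le hc).symm) 2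
      · rw [← pow_mul] at hc
        exact Dvd.intro_left a (Nat.pow_right_injective hp.two_le hc).symm
    obtain rfl := (Nat.prime_dvd_prime_iff_eq hr Nat.prime_two).1 (hr.dvd_of_dvd_pow k2)
    exact absurd hodd (by decide)
  · exfalso
    have k1 := hR.subfield (hRM.trans inf_le_left)
    obtain rfl : q = Nat.card F₀ := Nat.pow_left_injective two_ne_zero (hF.symm.trans hc)
    omega
  · rw [hR.eq_of hm hRM hM (c6_uni r1 r2 r3) inf_le_left]
  · obtain ⟨P, hP, -, hs, -⟩ := hr M hmax hres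
    exact absurd hs (hR.not_sm hm hRM hM hP.normal)

end Cfsg.Agent.X5
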