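import Cfsg.Agent.X5.D
import Cfsg.Agent.H7.GenSL
import Cfsg.Agent.H8.SLFrame
import Cfsg.Agent.H1.SL4Orth

/-!
Geometric maximal subgroups of `SL₅` from the residual list.
-/

set_option autoImplicit false

namespace Cfsg.Agent.X5

theorem resL_of {F : Type*} [Field F] [Fintype F]
    (h : ∀ (H : Subgroup (Matrix.GeneralLinearGroup (Fin 5) F)) (_ : Cfsg.Geo.IsMaximalIn (Cfsg.Geo.specialLinear (Fin 5) F) H) (_ : Cfsg.Geo.InLinearResidualClass H),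
    ∃ (P : Subgroup (Matrix.GeneralLinearGroup (Fin 5) F)) (p : ℕ), Cfsg.Geo.IsResidualCore H P ∧ p.Prime ∧ Fintype.card F = p ∧
    ((Nonempty ((P ⧸ (Cfsg.Geo.scalars (Fin 5) F).subgroupOf P) ≃* Matrix.ProjectiveSpecialLinearGroup (Fin 2) (ZMod 11)) ∧ p ≠ 3 ∧ (p % 11 = 1 ∨ p % 11 = 3 ∨ p % 11 = 4 ∨ p % 11 = 5 ∨ p % 11 = 9)) ∨
     (Cfsg.Spor.IsoM11 (P ⧸ (Cfsg.Geo.scalars (Fin 5) F).subgroupOf P) ∧ p = 3) ∨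
     ((∃ (K : Type) (_ : Field K) (_ : Fintype K), Fintype.card K = 4 ∧ Nonempty ((P ⧸ (Cfsg.Geo.scalars (Fin 5) F).subgroupOf P) ≃* Cfsg.PSU 4 K 2)) ∧ p % 6 = 1)) ) : ResL F := fun H h1 h2 => by
  obtain ⟨P, p, hP, -, hF, ⟨⟨e⟩, -⟩ | ⟨e, rfl⟩ | ⟨⟨K, _, _, hK, ⟨e⟩⟩, -⟩⟩ := h H h1 h2
  · exact ⟨P, hP, Or.inl (Nat.card_congr e.toEquiv ▸ sm_l211)⟩
  · exact ⟨P, hP, Or.inr ⟨e, hF⟩⟩
  · exact ⟨P, hP, Or.inl (Nat.card_congr e.toEquiv ▸ sm_u42 hK)⟩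

theorem resU_of {F : Type*} [Field F] [Fintype F] {q : ℕ}
    (h : ∀ (H : Subgroup (Matrix.GeneralLinearGroup (Fin 5) F)) (_ : Cfsg.Geo.IsMaximalIn (Cfsg.GU 5 F q ⊓ Cfsg.Geo.specialLinear (Fin 5) F) H) (_ : Cfsg.Geo.InUnitaryResidualClass H),
    ∃ P : Subgroup (Matrix.GeneralLinearGroup (Fin 5) F), Cfsg.Geo.IsResidualCore H P ∧ q.Prime ∧
    ((Nonempty ((P ⧸ (Cfsg.Geo.scalars (Fin 5) F).subgroupOf P) ≃* Matrix.ProjectiveSpecialLinearGroup (Fin 2) (ZMod 11)) ∧ (q % 11 = 2 ∨ q % 11 = 6 ∨ q % 11 = 7 ∨ q % 11 = 8 ∨ q % 11 = 10)) ∨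
     ((∃ (K : Type) (_ : Field K) (_ : Fintype K), Fintype.card K = 4 ∧ Nonempty ((P ⧸ (Cfsg.Geo.scalars (Fin 5) F).subgroupOf P) ≃* Cfsg.PSU 4 K 2)) ∧ q % 6 = 5)) ) : ResU F q := fun H h1 h2 => by
  obtain ⟨P, hP, hq, ⟨⟨e⟩, -⟩ | ⟨⟨K, _, _, hK, ⟨e⟩⟩, h6⟩⟩ := h H h1 h2
  · refine ⟨P, hP, hq, Nat.card_congr e.toEquiv ▸ sm_l211, Or.inl ?_⟩
    haveI : Fact (Nat.Prime 11) := ⟨by norm_num⟩
    have := O5.card_psl (E := ZMod 11) (by simp) (by simp; decide)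
    rw [ZMod.card] at this
    rw [Nat.card_congr e.toEquiv]
    omega
  · exact ⟨P, hP, hq, Nat.card_congr e.toEquiv ▸ sm_u42 hK, Or.inr h6⟩

theorem sl_all {F : Type*} [Field F] [Fintype F] (hr : ResL F) :
    (∀ W : Submodule F (Fin 5 → F), W ≠ ⊥ → W ≠ ⊤ → Cfsg.Geo.IsMaximalIn (Cfsg.Geo.specialLinear (Fin 5) F) (Cfsg.Geo.subspaceStabilizer W ⊓ Cfsg.Geo.specialLinear (Fin 5) F)) ∧
    (5 ≤ Fintype.card F → ∀ D : Fin 5 → Submodule F (Fin 5 → F), Cfsg.Geo.IsMDecomposition 1 D → Cfsg.Geo.IsMaximalIn (Cfsg.Geo.specialLinear (Fin 5) F) (Cfsg.Geo.decompositionStabilizer D ⊓ Cfsg.Geo.specialLinear (Fin 5) F)) ∧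
    (∀ K : Subalgebra F (Matrix (Fin 5) (Fin 5) F), Cfsg.Geo.IsFieldSubalgebra 5 K → Cfsg.Geo.IsMaximalIn (Cfsg.Geo.specialLinear (Fin 5) F) (Cfsg.Geo.subalgebraNormalizer K ⊓ Cfsg.Geo.specialLinear (Fin 5) F)) ∧
    (∀ (F₀ : Subfield F) (r : ℕ) (P : Matrix.GeneralLinearGroup (Fin 5) F), r.Prime → Fintype.card F = Nat.card F₀ ^ r → Cfsg.Geo.IsMaximalIn (Cfsg.Geo.specialLinear (Fin 5) F) (Cfsg.Geo.subfieldSubgroup F₀ P ⊓ Cfsg.Geo.specialLinear (Fin 5) F)) ∧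
    ((∃ p : ℕ, p.Prime ∧ Fintype.card F = p ∧ (p % 5 = 1)) → ∀ R : Subgroup (Matrix.GeneralLinearGroup (Fin 5) F), Cfsg.Geo.IsLinearSymplecticTypeData 5 R → Cfsg.Geo.IsMaximalIn (Cfsg.Geo.specialLinear (Fin 5) F) (Cfsg.Geo.subgroupNormalizer R ⊓ Cfsg.Geo.specialLinear (Fin 5) F)) ∧
    (Odd (Fintype.card F) → ∀ Q : (Fin 5 → F) → F, Cfsg.Geo.IsNondegenerateQuadraticForm Q → Cfsg.Geo.IsMaximalIn (Cfsg.Geo.specialLinear (Fin 5) F) (Cfsg.Geo.quadSimilarityGroup Q ⊓ Cfsg.Geo.specialLinear (Fin 5) F)) ∧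
    (∀ (σ : F ≃+* F) (f : (Fin 5 → F) → (Fin 5 → F) → F), Cfsg.Geo.IsUnitaryForm σ f → Cfsg.Geo.IsMaximalIn (Cfsg.Geo.specialLinear (Fin 5) F) (Cfsg.Geo.similarityGroup f ⊓ Cfsg.Geo.specialLinear (Fin 5) F)) :=
  ⟨H7.GenSL.stab, fun h _ hD => H8.maximal_sl_dec (by simp) hD (fun _ => h) (by simp), fun _ hK => sl_singer hr hK,
    H7.GenSL.subfield le_rfl, fun ⟨_, hp, hF, h5⟩ _ hR => sl_c6 hr hp hF h5 hR, H1.SL4.orth (by norm_num),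
    H7.GenSL.unitary le_rfl⟩

end Cfsg.Agent.X5
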