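import Cfsg.Agent.X5.E
import Cfsg.Agent.H9.UDecA
import Cfsg.Agent.H7.GenSU

/-!
Monomial tools in dimension five.
-/

set_option autoImplicit false
set_option linter.unusedSectionVars false

namespace Cfsg.Agent.X5

open Module Cfsg.Geo Cfsg.Agent.Asch Equiv
open scoped MatrixGroups Matrix Pointwise

theorem exists_cfix2 {G : Type*} [Group G] [Finite G] {p : ℕ} [Fact p.Prime] {R P : Subgroup G} (hR : IsPGroup p R)
    (hT : ∀ t ∈ R, ∀ x ∈ P, t * x * t⁻¹ ∈ P) (hp : p ∣ Nat.card P) :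
    ∃ y ∈ P, y ≠ 1 ∧ (∃ k, y ^ p ^ k = 1) ∧ ∀ x ∈ R, x * y * x⁻¹ = y := by
  have hle : R ≤ Subgroup.normalizer (P : Set G) := fun t ht => Subgroup.mem_normalizer_iff.2 fun x =>
    ⟨hT t ht x, fun hx => by simpa [mul_assoc] using hT t⁻¹ (R.inv_mem ht) _ hx⟩
  let φ : R →* MulAut P := P.normalizerMonoidHom.comp (Subgroup.inclusion hle)
  letI : MulAction R (Sylow p P) := MulAction.compHom (Sylow p P) φ
  obtain ⟨Q, hQ⟩ := hR.nonempty_fixed_point_of_prime_not_dvd_card (Sylow p P) (not_dvd_card_sylow p P)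
  obtain ⟨_, ⟨y, hy, rfl⟩, h1, h2⟩ := exists_cfix (P := (Q : Subgroup P).map P.subtype) hR (by
    rintro u hu _ ⟨x, hx, rfl⟩
    have hu' : φ ⟨u, hu⟩ • Q = Q := hQ ⟨u, hu⟩
    have h1 : φ ⟨u, hu⟩ • x ∈ ((φ ⟨u, hu⟩ • Q : Sylow p P) : Subgroup P) := by
      rw [Sylow.pointwise_smul_def]; exact Subgroup.smul_mem_pointwise_smul x (φ ⟨u, hu⟩) _ hx
    rw [hu'] at h1
    exact ⟨_, h1, rfl⟩) (by
      rw [Subgroup.card_map_of_injective P.subtype_injective]; exact Q.dvd_card_of_dvd_card hp)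
  obtain ⟨k, hk⟩ := Q.isPGroup' ⟨y, hy⟩
  exact ⟨_, y.2, h1, ⟨k, congrArg (fun z : (Q : Subgroup P) => z.1.1) hk⟩, h2⟩

theorem exists_pow_ord {M : Type*} [Monoid M] {l : ℕ} : ∀ (k : ℕ) {u : M}, u ^ l ^ k = 1 → u ≠ 1 →
    ∃ n, u ^ n ≠ 1 ∧ (u ^ n) ^ l = 1
  | 0, u, h, h1 => absurd (by simpa using h) h1
  | k + 1, u, h, h1 => by
    by_cases h2 : u ^ l = 1
    · exact ⟨1, by simpa using h1, by simpa using h2⟩
    · obtain ⟨n, h3, h4⟩ := exists_pow_ord k (u := u ^ l) (by rwa [← pow_mul, ← pow_succ']) h2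
      exact ⟨l * n, by rwa [pow_mul], by rwa [pow_mul]⟩

theorem perm_ab : ∀ s : Perm (Fin 5), (∀ t : Perm (Fin 5), Perm.sign t = 1 →
    s * (t * s * t⁻¹) = t * s * t⁻¹ * s) → s = 1 := by decide +kernel

theorem perm_two : ∀ i j k l : Fin 5, i ≠ j → k ≠ l → ∃ π : Perm (Fin 5), Perm.sign π = 1 ∧ π i = k ∧ π j = l := by
  decide +kernel

theorem fifth : ∀ a b c d : Fin 5, ∃ j, j ≠ a ∧ j ≠ b ∧ j ≠ c ∧ j ≠ d := by decide

variable {F : Type*} [Field F] [Fintype F]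

theorem exists_cfix3 {p : ℕ} [Fact p.Prime] {R P : Subgroup (GL (Fin 5) F)} (hR : IsPGroup p R)
    (hT : ∀ t ∈ R, ∀ x ∈ P, t * x * t⁻¹ ∈ P) (hp : p ∣ Nat.card (Qt P)) :
    ∃ y ∈ P, y ∉ scalars (Fin 5) F ∧ (∃ k, y ^ p ^ k ∈ scalars (Fin 5) F) ∧
      ∀ x ∈ R, ∃ c : F, (x : M5 F) * y = c • ((y : M5 F) * x) := by
  rw [card_qt] at hp
  obtain ⟨_, ⟨y, hy, rfl⟩, h1, ⟨k, hk⟩, h2⟩ := exists_cfix2 (hR.map (QuotientGroup.mk' (scalars (Fin 5) F))) (by
    rintro _ ⟨t, ht, rfl⟩ _ ⟨x, hx, rfl⟩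
    exact ⟨_, hT t ht x hx, rfl⟩) hp
  refine ⟨y, hy, fun e => h1 ((QuotientGroup.eq_one_iff y).2 e), ⟨k, (QuotientGroup.eq_one_iff _).1 hk⟩,
    fun x hx => exists_twist_of_mem ((QuotientGroup.eq_one_iff _).1 ?_)⟩
  exact mul_inv_eq_one.2 (h2 _ ⟨x, hx, rfl⟩)

/-- permutation matrices -/
noncomputable def pm : Perm (Fin 5) →* GL (Fin 5) F := (Matrix.permMatrixHom (R := F)).toHomUnits

theorem pm_mulVec (π : Perm (Fin 5)) (v : Fin 5 → F) : (pm π : GL (Fin 5) F).1 *ᵥ v = v ∘ ⇑π⁻¹ :=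
  Matrix.permMatrix_mulVec _

theorem pm_single (π : Perm (Fin 5)) (i : Fin 5) :
    (pm π : GL (Fin 5) F).1 *ᵥ Pi.single i 1 = Pi.single (π i) 1 := by
  rw [pm_mulVec]; ext j; simp [Pi.single_apply, Equiv.symm_apply_eq]

theorem pm_diag (π : Perm (Fin 5)) (d : Fin 5 → F) :
    (pm π⁻¹ : GL (Fin 5) F).1 * Matrix.diagonal d * ((pm π⁻¹)⁻¹ : GL (Fin 5) F).1 = Matrix.diagonal (d ∘ π) := by
  rw [← map_inv, inv_inv]
  refine Matrix.toLin'.injective (LinearMap.ext fun v => ?_)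
  simp only [Matrix.toLin'_apply, ← Matrix.mulVec_mulVec, pm_mulVec]
  ext i
  simp [Matrix.mulVec_diagonal]

theorem pm_sl {π : Perm (Fin 5)} (h : Perm.sign π = 1) : (pm π : GL (Fin 5) F) ∈ specialLinear (Fin 5) F := by
  rw [mem_SL]
  exact (Matrix.det_permutation π⁻¹).trans (by simp [h])

theorem pm_gu (q : ℕ) (π : Perm (Fin 5)) : (pm π : GL (Fin 5) F) ∈ GU 5 F q := fun u v => by
  change hermForm 5 F q ((pm π : GL (Fin 5) F).1 *ᵥ u) ((pm π : GL (Fin 5) F).1 *ᵥ v) = _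
  rw [pm_mulVec, pm_mulVec]
  exact Equiv.sum_comp π⁻¹ fun i => u i * v i ^ q

/-- diagonal elements of a subgroup -/
def In (P : Subgroup (GL (Fin 5) F)) (d : Fin 5 → F) : Prop := ∃ g ∈ P, (g : M5 F) = Matrix.diagonal d

/-- normalised by the even permutation matrices -/
def Nm (P : Subgroup (GL (Fin 5) F)) : Prop := ∀ π, Perm.sign π = 1 → ∀ x ∈ P, pm π * x * (pm π)⁻¹ ∈ P

namespace In

variable {P : Subgroup (GL (Fin 5) F)} {d e : Fin 5 → F}

theorem ne (h : In P d) (i : Fin 5) : d i ≠ 0 := by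
  obtain ⟨g, -, hg⟩ := h
  have := Matrix.GeneralLinearGroup.det_ne_zero g
  rw [hg, Matrix.det_diagonal] at this
  exact Finset.prod_ne_zero_iff.1 this i (Finset.mem_univ i)

theorem mul (h : In P d) (h' : In P e) : In P (d * e) := by
  obtain ⟨g, h1, hg⟩ := h
  obtain ⟨g', h2, hg'⟩ := h'
  exact ⟨g * g', mul_mem h1 h2, by rw [Units.val_mul, hg, hg', Matrix.diagonal_mul_diagonal]; rfl⟩

theorem pow (h : In P d) (n : ℕ) : In P (d ^ n) := by
  obtain ⟨g, h1, hg⟩ := h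
  exact ⟨g ^ n, pow_mem h1 n, by rw [Units.val_pow_eq_pow_val, hg, Matrix.diagonal_pow]⟩

theorem inv (h : In P d) : In P d⁻¹ := by
  have h0 := h.ne
  obtain ⟨g, h1, hg⟩ := h
  refine ⟨g⁻¹, inv_mem h1, Units.inv_eq_of_mul_eq_one_right ?_⟩
  rw [hg, Matrix.diagonal_mul_diagonal, ← Matrix.diagonal_one]
  congr 1; ext i; simp [h0 i]

theorem perm (h : In P d) (hP : Nm P) {π : Perm (Fin 5)} (hπ : Perm.sign π = 1) : In P (d ∘ π) := by
  obtain ⟨g, h1, hg⟩ := h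
  exact ⟨_, hP π⁻¹ (by simpa using hπ) g h1, by rw [Units.val_mul, Units.val_mul, hg, pm_diag]⟩

end In

/-- two non-trivial entries -/
def dd (i j : Fin 5) (a : F) : Fin 5 → F := fun k => if k = i then a else if k = j then a⁻¹ else 1

theorem dd_prod {i j : Fin 5} (h : i ≠ j) {a : F} (ha : a ≠ 0) : ∏ k, dd i j a k = 1 := by
  fin_cases i <;> fin_cases j <;> first | exact absurd rfl h | simp [dd, Fin.prod_univ_five, ha]

theorem dd_pow (i j : Fin 5) (a : F) (n : ℕ) : dd i j a ^ n = dd i j (a ^ n) := by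
  ext k; simp only [dd, Pi.pow_apply]; split_ifs <;> simp

theorem dd_perm {i j k l : Fin 5} {π : Perm (Fin 5)} (h1 : π i = k) (h2 : π j = l) (a : F) :
    dd k l a ∘ π = dd i j a := by
  ext m; simp [dd, ← h1, ← h2]

theorem single_mem {W : Submodule F (Fin 5 → F)} {a : F} (h1 : a ≠ 1)
    (hd : ∀ i j, i ≠ j → ∀ v ∈ W, Matrix.diagonal (dd i j a) *ᵥ v ∈ W) {v : Fin 5 → F} (hv : v ∈ W) {i : Fin 5}
    (hi : v i ≠ 0) : Pi.single i 1 ∈ W := by
  obtain ⟨j, hj, -⟩ := fifth i i i i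
  obtain ⟨k, hk, hkj, -⟩ := fifth i j j j
  have h2 := sub_mem (hd i j hj.symm v hv) hv
  have h3 := sub_mem (hd i k hk.symm _ h2) h2
  rw [← W.smul_mem_iff (mul_ne_zero (pow_ne_zero 2 (sub_ne_zero.2 h1)) hi)]
  convert h3 using 1
  ext l
  simp only [Pi.smul_apply, Pi.sub_apply, Matrix.mulVec_diagonal, dd, Pi.single_apply, smul_eq_mul]
  by_cases e1 : l = i
  · subst e1; simp; ring
  by_cases e2 : l = j
  · subst e2; simp [e1, hkj.symm]
  by_cases e3 : l = k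
  · subst e3; simp [e1, e2]
  simp [e1, e2, e3]

theorem diag_of_twist {y : GL (Fin 5) F} {w : F} (h1 : w ≠ 1) (h : ∀ i j, i ≠ j → ∃ c : F,
    Matrix.diagonal (dd i j w) * (y : M5 F) = c • ((y : M5 F) * Matrix.diagonal (dd i j w))) :
    (y : M5 F) = Matrix.diagonal fun i => (y : M5 F) i i := by
  ext k l
  by_cases hkl : k = l
  · simp [hkl]
  rw [Matrix.diagonal_apply_ne _ hkl]
  by_contra hy
  have key : ∀ i j, i ≠ j → ∃ c : F, ∀ m n, (y : M5 F) m n ≠ 0 → dd i j w m = c * dd i j w n := fun i j hij => by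
    obtain ⟨c, hc⟩ := h i j hij
    refine ⟨c, fun m n hmn => mul_right_cancel₀ hmn ?_⟩
    have := congrFun (congrFun hc m) n
    simp only [Matrix.diagonal_mul, Matrix.smul_apply, Matrix.mul_diagonal, smul_eq_mul] at this
    rw [this]; ring
  obtain ⟨m, hmk, hml, -⟩ := fifth k l l l
  obtain ⟨n, hn⟩ : ∃ n, (y : M5 F) m n ≠ 0 := by
    by_contra hn
    push Not at hn
    exact Matrix.GeneralLinearGroup.det_ne_zero y (Matrix.det_eq_zero_of_row_eq_zero m hn)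
  obtain ⟨j, j1, j2, j3, j4⟩ := fifth k l m n
  by_cases hnm : n = m
  · subst hnm
    obtain ⟨c, hc⟩ := key k j j1.symm
    have e1 := hc k l hy
    have e2 := hc n n hn
    simp [dd, Ne.symm hkl, j2.symm, hmk, j3.symm] at e1 e2
    exact h1 (e1.trans e2.symm)
  · obtain ⟨c, hc⟩ := key m j j3.symm
    have e1 := hc k l hy
    have e2 := hc m n hn
    simp [dd, hmk.symm, hml.symm, j1.symm, j2.symm, hnm, j4.symm] at e1 e2
    exact h1 (e2.trans e1.symm)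

theorem get_dd {P : Subgroup (GL (Fin 5) F)} (hP : Nm P) {d : Fin 5 → F} (h : In P d) {i j : Fin 5}
    (hij : d i ≠ d j) {k l : Fin 5} (hkl : k ≠ l) : In P (dd k l (d i / d j)) := by
  obtain ⟨π, hπ, h0, h1⟩ := perm_two 1 0 i j (by decide) (by rintro rfl; exact hij rfl)
  obtain ⟨ρ, hρ, h2, h3⟩ := perm_two k l 3 0 hkl (by decide)
  rw [← dd_perm h2 h3]
  refine In.perm ?_ hP hρ
  have a1 := h.perm hP hπ
  have a0 := a1.ne
  have a2 := (a1.perm hP (π := swap 0 1 * swap 1 2) (by decide)).mul a1.inv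
  have a3 := (a2.perm hP (π := swap 0 4 * swap 4 3) (by decide)).mul a2.inv
  rw [← h0, ← h1]
  convert a3 using 1
  simp only [Function.comp_apply] at a0
  ext m
  fin_cases m <;> simp [dd, swap_apply_def, a0, div_eq_mul_inv] <;> field_simp [a0]

/-- diagonal elements of exponent `l` -/
def Eg (P : Subgroup (GL (Fin 5) F)) (l : ℕ) : Subgroup (GL (Fin 5) F) where
  carrier := {g | g ∈ P ∧ (∃ d, (g : M5 F) = Matrix.diagonal d) ∧ g ^ l = 1}
  one_mem' := ⟨P.one_mem, ⟨1, Matrix.diagonal_one.symm⟩, one_pow l⟩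
  mul_mem' := by
    rintro a b ⟨h1, ⟨d, hd⟩, h2⟩ ⟨h3, ⟨e, he⟩, h4⟩
    refine ⟨P.mul_mem h1 h3, ⟨_, by rw [Units.val_mul, hd, he, Matrix.diagonal_mul_diagonal]⟩, ?_⟩
    rw [Commute.mul_pow (Units.ext (by
      rw [Units.val_mul, Units.val_mul, hd, he]; exact Matrix.commute_diagonal d e)), h2, h4, one_mul]
  inv_mem' := by
    rintro a ⟨h1, ⟨d, hd⟩, h2⟩
    obtain ⟨g, hg, e⟩ := In.inv (P := Subgroup.zpowers a ⊓ Subgroup.zpowers a) ⟨a, ⟨by simp, by simp⟩, hd⟩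
    refine ⟨P.inv_mem h1, ⟨d⁻¹, Units.inv_eq_of_mul_eq_one_right ?_⟩, by rw [inv_pow, h2, inv_one]⟩
    have h0 := In.ne (P := P) ⟨a, h1, hd⟩
    rw [hd, Matrix.diagonal_mul_diagonal, ← Matrix.diagonal_one]
    congr 1; ext i; simp [h0 i]

theorem eg_pg (P : Subgroup (GL (Fin 5) F)) (l : ℕ) : IsPGroup l (Eg P l) := fun x =>
  ⟨1, Subtype.ext (by rw [pow_one]; exact x.2.2.2)⟩

theorem in_eg {P : Subgroup (GL (Fin 5) F)} {l : ℕ} {d : Fin 5 → F} (h : In P d) (hd : ∀ i, d i ^ l = 1) :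
    In (Eg P l) d := by
  obtain ⟨g, h1, hg⟩ := h
  refine ⟨g, ⟨h1, ⟨d, hg⟩, Units.ext ?_⟩, hg⟩
  rw [Units.val_pow_eq_pow_val, hg, Matrix.diagonal_pow, Units.val_one, ← Matrix.diagonal_one]
  congr 1; ext i; exact hd i

theorem dd_exp {l : ℕ} {u : F} (h : u ^ l = 1) (i j k : Fin 5) : dd i j u k ^ l = 1 := by
  simp only [dd]; split_ifs <;> simp [h]

theorem eg_card {P : Subgroup (GL (Fin 5) F)} {l : ℕ} (hl : l.Prime) {u : F} (h1 : u ≠ 1) (hu : u ^ l = 1)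
    (h : ∀ i j, i ≠ j → In P (dd i j u)) : l ^ 4 ∣ Nat.card (Eg P l) := by
  haveI := Fact.mk hl
  obtain ⟨k, hk⟩ := (eg_pg P l).exists_card_eq
  have ho := orderOf_eq_prime hu h1
  have key : ∀ n : Fin 4 → Fin l, In (Eg P l) (dd 0 4 u ^ (n 0).1 * dd 1 4 u ^ (n 1).1 * dd 2 4 u ^ (n 2).1 *
      dd 3 4 u ^ (n 3).1) := fun n =>
    ((((in_eg (h 0 4 (by decide)) (dd_exp hu _ _)).pow _).mul ((in_eg (h 1 4 (by decide)) (dd_exp hu _ _)).pow _)).mul
      ((in_eg (h 2 4 (by decide)) (dd_exp hu _ _)).pow _)).mul ((in_eg (h 3 4 (by decide)) (dd_exp hu _ _)).pow _)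
  choose g hg hg' using key
  have := Nat.card_le_card_of_injective (fun n => (⟨g n, hg n⟩ : Eg P l)) fun n n' e => by
    have e1 : g n = g n' := congrArg Subtype.val e
    have e2 := Matrix.diagonal_injective ((hg' n).symm.trans (e1 ▸ hg' n'))
    have inj : ∀ a b : Fin l, u ^ a.1 = u ^ b.1 → a = b := fun a b e =>
      Fin.ext (pow_injOn_Iio_orderOf (by simp [ho]) (by simp [ho]) e)
    ext1 i
    have := congrFun e2 i.castSucc
    fin_cases i <;> exact inj _ _ (by simpa [dd] using this)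
  rw [hk, Nat.card_fun, Nat.card_eq_fintype_card, Nat.card_eq_fintype_card, Fintype.card_fin, Fintype.card_fin] at this
  rw [hk]
  exact pow_dvd_pow _ ((Nat.pow_le_pow_iff_right hl.one_lt).1 this)

theorem comm_of_fix {D : Fin 5 → Submodule F (Fin 5 → F)} (hD : IsMDecomposition 1 D) {a b : decompositionStabilizer D}
    (ha : fh hD a = 1) (hb : fh hD b = 1) : a.1 * b.1 = b.1 * a.1 := by
  have key : ∀ a : decompositionStabilizer D, fh hD a = 1 → ∀ i, ∃ c : F, ∀ v ∈ D i, (a.1 : M5 F) *ᵥ v = c • v :=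
    fun a ha i => by
      have h1 := fh_spec hD a i
      rw [ha, Perm.one_apply] at h1
      obtain ⟨w, -, hw⟩ := finrank_eq_one_iff'.1 (hD.finrank_eq i)
      obtain ⟨c, hc⟩ := hw ⟨_, h1 ▸ Submodule.mem_map_of_mem w.2⟩
      refine ⟨c, fun v hv => ?_⟩
      obtain ⟨e, he⟩ := hw ⟨v, hv⟩
      have h2 : (a.1 : M5 F) *ᵥ w.1 = c • w.1 := (congrArg Subtype.val hc).symm
      rw [← show e • w.1 = v from congrArg Subtype.val he, Matrix.mulVec_smul, h2, smul_comm]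
  refine Units.ext (Matrix.toLin'.injective (LinearMap.ext fun v => ?_))
  have hv : v ∈ ⨆ i, D i := hD.iSup_eq_top ▸ Submodule.mem_top
  induction hv using Submodule.iSup_induction' with
  | mem i x hx =>
    obtain ⟨c, hc⟩ := key a ha i
    obtain ⟨e, he⟩ := key b hb i
    simp only [Matrix.toLin'_apply, Units.val_mul, ← Matrix.mulVec_mulVec, hc x hx, he x hx, Matrix.mulVec_smul,
      smul_comm c e]
  | zero => simp
  | add x y _ _ h1 h2 => rw [map_add, map_add, h1, h2]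

theorem trace_comm {F₀ : Subfield F} {P x y : GL (Fin 5) F} (hx : x ∈ subfieldSubgroup F₀ P)
    (hy : y ∈ subfieldSubgroup F₀ P) : ((x * y * x⁻¹ * y⁻¹ : GL (Fin 5) F) : M5 F).trace ∈ F₀ := by
  obtain ⟨c, X, hc, e1⟩ := (mem_subfieldSubgroup_iff F₀ P x).1 hx
  obtain ⟨d, Y, hd, e2⟩ := (mem_subfieldSubgroup_iff F₀ P y).1 hy
  have h1 : cj P⁻¹ ((x * y * x⁻¹ * y⁻¹ : GL (Fin 5) F) : M5 F) =
      ((X * Y * X⁻¹ * Y⁻¹ : GL (Fin 5) F₀) : M5 F₀).map F₀.subtype := by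
    have hu : IsUnit (cj P⁻¹ ((y * x : GL (Fin 5) F) : M5 F)) := (y * x).isUnit.map _
    refine hu.mul_right_cancel ?_
    rw [← map_mul, ← Units.val_mul, show x * y * x⁻¹ * y⁻¹ * (y * x) = x * y by group, Units.val_mul, Units.val_mul y,
      map_mul, map_mul, e1, e2, smul_mul_smul_comm, smul_mul_smul_comm, mul_smul_comm, mul_comm d, ← Matrix.map_mul,
      ← Matrix.map_mul, ← Matrix.map_mul, ← Units.val_mul, ← Units.val_mul, ← Units.val_mul]
    congr 3; group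
  rw [← trace_cj P⁻¹, h1, Matrix.trace]
  exact sum_mem fun i _ => SetLike.coe_mem _

theorem mem_stab_of {D : Fin 5 → Submodule F (Fin 5 → F)} (hD : IsMDecomposition 1 D) {b : Fin 5 → Fin 5 → F}
    (hb : ∀ i, D i = F ∙ b i) {g : GL (Fin 5) F} (h : ∀ i, ∃ j, (g : M5 F) *ᵥ b i ∈ D j) :
    g ∈ decompositionStabilizer D := by
  choose f hf using h
  have h1 : ∀ i, (D i).map (Matrix.toLin' (g : M5 F)) = D (f i) := fun i =>
    Submodule.eq_of_le_of_finrank_eq (by rw [hb i, Submodule.map_span, Set.image_singleton]; simpa using hf i)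
      (by rw [finrank_map_gl, hD.finrank_eq, hD.finrank_eq])
  have h2 : Function.Injective f := fun i j e => frame_inj hD (Submodule.map_injective_of_injective
    (f := Matrix.toLin' (g : M5 F)) (Matrix.mulVec_injective_iff_isUnit.2 g.isUnit) (by rw [h1, h1, e]))
  exact ⟨Equiv.ofBijective f (Finite.injective_iff_bijective.1 h2), h1⟩

end Cfsg.Agent.X5
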