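import Cfsg.Agent.X5.F

/-!
Overgroups of the monomial group of `SU₅`.
-/

set_option autoImplicit false
set_option linter.unusedSectionVars false

namespace Cfsg.Agent.X5

open Module Cfsg.Geo Cfsg.Agent.Asch Equiv
open scoped MatrixGroups Matrix Pointwise

theorem syl_exp {G : Type*} [Group G] [Finite G] {p n k : ℕ} [hp : Fact p.Prime] {E : Subgroup G}
    (hE : ∀ x ∈ E, x ^ p = 1) (h1 : p ^ n ∣ Nat.card E) (h2 : ¬ p ^ (n + 1) ∣ Nat.card G) {g : G}
    (hg : g ^ p ^ k = 1) : g ^ p = 1 := by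
  have e1 : IsPGroup p E := fun x => ⟨1, Subtype.ext (by rw [pow_one]; exact hE x x.2)⟩
  have e2 : IsPGroup p (Subgroup.zpowers g) := by
    rintro ⟨_, m, rfl⟩
    exact ⟨k, Subtype.ext (by
      change (g ^ m) ^ p ^ k = 1
      rw [← zpow_natCast, ← zpow_mul, mul_comm, zpow_mul, zpow_natCast, hg, one_zpow])⟩
  obtain ⟨S, hS⟩ := e1.exists_le_sylow
  obtain ⟨Q, hQ⟩ := e2.exists_le_sylow
  obtain ⟨m, hm⟩ := S.isPGroup'.exists_card_eq
  have e3 : E = S := Subgroup.eq_of_le_of_card_ge hS (by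
    refine le_trans ?_ (Nat.le_of_dvd Nat.card_pos h1)
    rw [hm]
    refine Nat.pow_le_pow_right hp.out.pos (not_lt.1 fun h => h2 ((pow_dvd_pow p h).trans ?_))
    rw [← hm]; exact Subgroup.card_subgroup_dvd_card _)
  obtain ⟨x, rfl⟩ := MulAction.exists_smul_eq G S Q
  obtain ⟨y, hy, e⟩ := hQ (Subgroup.mem_zpowers g)
  rw [← e3] at hy
  rw [← e]
  change (x * y * x⁻¹) ^ p = 1
  rw [conj_pow, hE y hy, mul_one, mul_inv_cancel]

variable {F : Type*} [Field F] [Fintype F]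

theorem pm_ns {π : Perm (Fin 5)} (h : π ≠ 1) (c : F) : (pm π : GL (Fin 5) F).1 ≠ c • 1 := fun e => by
  obtain ⟨i, hi⟩ : ∃ i, π i ≠ i := by
    by_contra hn
    push Not at hn
    exact h (Equiv.ext hn)
  have := congrFun (pm_single (F := F) π i) (π i)
  rw [e] at this
  simp [hi] at this

theorem ex_mu {q : ℕ} (hF : Fintype.card F = q ^ 2) : ∃ a : F, a ^ (q + 1) = 1 ∧ a ≠ 1 := by
  obtain ⟨a, h1, h2⟩ := H9.UDec.Un.exists_mu_ne (P := H7.uStd hF 5) ⟨H7.GenSU.σ_ne hF, rfl⟩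
  exact ⟨a, by rw [pow_succ']; exact h1, h2⟩

theorem mu_all {q : ℕ} (hF : Fintype.card F = q ^ 2) {A : AddSubgroup F} (h : ∀ a : F, a ^ (q + 1) = 1 → a ∈ A)
    (x : F) : x ∈ A :=
  H9.UDec.Un.mem_of_mu (P := H7.uStd hF 5) ⟨H7.GenSU.σ_ne hF, rfl⟩ (fun a ha => h a (by rw [pow_succ']; exact ha)) x

/-- containing the standard monomial group -/
structure St (q : ℕ) (M : Subgroup (GL (Fin 5) F)) : Prop where
  hF : Fintype.card F = q ^ 2
  hd : ∀ d : Fin 5 → F, (∀ i, d i ^ (q + 1) = 1) → ∏ i, d i = 1 → In M d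
  hp : ∀ π, Perm.sign π = 1 → pm π ∈ M

namespace St

variable {q : ℕ} {M : Subgroup (GL (Fin 5) F)} (h : St q M)
include h

theorem mono {N : Subgroup (GL (Fin 5) F)} (hN : M ≤ N) : St q N :=
  ⟨h.hF, fun d h1 h2 => (h.hd d h1 h2).imp fun _ hg => ⟨hN hg.1, hg.2⟩, fun π hπ => hN (h.hp π hπ)⟩

theorem in_dd {a : F} (ha : a ^ (q + 1) = 1) {i j : Fin 5} (hij : i ≠ j) : In M (dd i j a) :=
  h.hd _ (dd_exp ha i j) (dd_prod hij (by rintro rfl; simp at ha))

theorem single {W : Submodule F (Fin 5 → F)} (h0 : W ≠ ⊥)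
    (hW : ∀ g ∈ M, ∀ d, (g : M5 F) = Matrix.diagonal d → ∀ v ∈ W, (g : M5 F) *ᵥ v ∈ W) : ∃ i, Pi.single i 1 ∈ W := by
  obtain ⟨a, h1, h2⟩ := ex_mu h.hF
  obtain ⟨v, hv, hv0⟩ := Submodule.exists_mem_ne_zero_of_ne_bot h0
  obtain ⟨i, hi⟩ := Function.ne_iff.1 hv0
  refine ⟨i, single_mem h2 (fun i j hij v hv => ?_) hv hi⟩
  obtain ⟨g, hg, e⟩ := h.in_dd h1 hij
  exact e ▸ hW g hg _ e v hv

theorem not_stab {W : Submodule F (Fin 5 → F)} (h0 : W ≠ ⊥) (h1 : W ≠ ⊤) : ¬ M ≤ subspaceStabilizer W := fun hM => by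
  obtain ⟨i, hi⟩ := h.single h0 fun g hg _ _ v hv => (hM hg v).1 hv
  refine h1 (eq_top_iff.2 fun v _ => ?_)
  rw [pi_eq_sum_univ' v]
  refine sum_mem fun j _ => W.smul_mem _ ?_
  obtain ⟨i', hi', -⟩ := fifth i i i i
  obtain ⟨j', hj', -⟩ := fifth j j j j
  obtain ⟨π, hπ, rfl, -⟩ := perm_two i i' j j' hi'.symm hj'.symm
  rw [← pm_single]
  exact (hM (h.hp π hπ) _).1 hi

theorem frame {D : Fin 5 → Submodule F (Fin 5 → F)} (hD : IsMDecomposition 1 D) (hM : M ≤ decompositionStabilizer D)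
    {g : GL (Fin 5) F} (hg : g ∈ M) (i : Fin 5) : ∃ j, (g : M5 F) *ᵥ Pi.single i 1 ∈ F ∙ (Pi.single j 1 : Fin 5 → F) := by
  let ψ : alternatingGroup (Fin 5) →* decompositionStabilizer D :=
    (pm.comp (Subgroup.subtype _)).codRestrict _ fun π => hM (h.hp π.1 (Perm.mem_alternatingGroup.1 π.2))
  haveI := alternatingGroup.isSimpleGroup_five
  rcases ((fh hD).comp ψ).normal_ker.eq_bot_or_eq_top with hk | hk
  swap
  · let a : alternatingGroup (Fin 5) := ⟨swap 0 1 * swap 1 2, Perm.mem_alternatingGroup.2 (by decide)⟩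
    let b : alternatingGroup (Fin 5) := ⟨swap 0 1 * swap 1 3, Perm.mem_alternatingGroup.2 (by decide)⟩
    have h1 := comm_of_fix hD (a := ψ a) (b := ψ b) (hk ▸ Subgroup.mem_top a : a ∈ _) (hk ▸ Subgroup.mem_top b : b ∈ _)
    refine absurd ?_ (pm_ns (π := a.1 * b.1 * (b.1 * a.1)⁻¹) (by decide) (1 : F))
    rw [map_mul, map_inv, map_mul _ a.1, map_mul _ b.1, one_smul]
    exact congrArg Units.val (mul_inv_eq_one.2 h1)
  have hr : ((fh hD).comp ψ).range = alternatingGroup (Fin 5) := by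
    refine Perm.eq_alternatingGroup_of_index_eq_two ?_
    have h1 := Subgroup.card_mul_index ((fh hD).comp ψ).range
    rw [← Nat.card_congr (MonoidHom.ofInjective ((MonoidHom.ker_eq_bot_iff _).1 hk)).toEquiv,
      ← Subgroup.card_mul_index (alternatingGroup (Fin 5)), alternatingGroup.index_eq_two] at h1
    exact Nat.eq_of_mul_eq_mul_left Nat.card_pos h1
  have key : ∀ k, ∃ i, D k = F ∙ (Pi.single i 1 : Fin 5 → F) := fun k => by
    obtain ⟨i, hi⟩ := h.single (W := D k) (fun e => by have := hD.finrank_eq k; rw [e] at this; simp at this)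
      fun g hg d hgd v hv => by
        have h1 := fh_spec hD ⟨g, hM hg⟩ k
        rw [perm_ab (fh hD ⟨g, hM hg⟩) fun t ht => ?_, Perm.one_apply] at h1
        · exact h1 ▸ Submodule.mem_map_of_mem hv
        obtain ⟨π, rfl⟩ : t ∈ ((fh hD).comp ψ).range := by rw [hr]; exact Perm.mem_alternatingGroup.2 ht
        rw [MonoidHom.comp_apply, ← map_inv, ← map_mul, ← map_mul, ← map_mul, ← map_mul]
        refine congrArg _ (Subtype.ext (Units.ext ?_))
        have := pm_diag π.1⁻¹ d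
        rw [inv_inv] at this
        change (g : M5 F) * ((pm π.1 : GL (Fin 5) F).1 * (g : M5 F) * ((pm π.1)⁻¹ : GL (Fin 5) F).1) =
          (pm π.1 : GL (Fin 5) F).1 * (g : M5 F) * ((pm π.1)⁻¹ : GL (Fin 5) F).1 * (g : M5 F)
        rw [hgd, this]
        exact Matrix.commute_diagonal _ _
    exact ⟨i, (Submodule.eq_of_le_of_finrank_eq ((Submodule.span_singleton_le_iff_mem _ _).2 hi)
      (by rw [finrank_span_singleton (by simp), hD.finrank_eq])).symm⟩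
  choose f hf using key
  obtain ⟨k, rfl⟩ := Finite.injective_iff_surjective.1
    (show Function.Injective f from fun a b e => frame_inj hD (by rw [hf, hf, e])) i
  refine ⟨f (fh hD ⟨g, hM hg⟩ k), ?_⟩
  rw [← hf, ← fh_spec hD]
  exact Submodule.mem_map_of_mem (hf k ▸ Submodule.mem_span_singleton_self _)

theorem not_field {K : Subalgebra F (M5 F)} (hK : IsFieldSubalgebra 5 K) : ¬ M ≤ subalgebraNormalizer K := fun hM => by
  have h1 := mem_of_comm_singer (by simpa using hK) fun k hk =>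
    field_pow hK (hM (h.hp (swap 0 1 * swap 1 2) (by decide))) hk
  rw [← map_pow] at h1
  obtain ⟨c, hc⟩ := scal hK h1 (l := 3) (by norm_num) (by norm_num) (by
    rw [← Units.val_pow_eq_pow_val, ← map_pow, show ((swap 0 1 * swap 1 2 : Perm (Fin 5)) ^ 5) ^ 3 = 1 by decide +kernel,
      map_one, Units.val_one])
  exact pm_ns (by decide +kernel) c hc

theorem tr_mem {F₀ : Subfield F} {P : GL (Fin 5) F} (hM : M ≤ subfieldSubgroup F₀ P) {d : Fin 5 → F} (hd : In M d) :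
    d 1 / d 0 + d 2 / d 1 + d 0 / d 2 ∈ F₀ := by
  have h0 := hd.ne
  obtain ⟨g, hg, e⟩ := hd
  have h1 := trace_comm (hM (h.hp (swap 0 1 * swap 1 2)⁻¹ (by decide))) (hM hg)
  have e1 : ((g⁻¹ : GL (Fin 5) F) : M5 F) = Matrix.diagonal d⁻¹ := Units.inv_eq_of_mul_eq_one_right (by
    rw [e, Matrix.diagonal_mul_diagonal, ← Matrix.diagonal_one]
    congr 1; ext i; simp [h0 i])
  rw [Units.val_mul, Units.val_mul, Units.val_mul, e, pm_diag, e1, Matrix.diagonal_mul_diagonal,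
    Matrix.trace_diagonal] at h1
  convert sub_mem h1 (natCast_mem F₀ 2) using 1
  simp [Fin.sum_univ_five, swap_apply_def, h0, div_eq_mul_inv]
  ring

theorem not_sub {F₀ : Subfield F} {P : GL (Fin 5) F} {r : ℕ} (hr : 2 ≤ r) (hc : Fintype.card F = Nat.card F₀ ^ r) :
    ¬ M ≤ subfieldSubgroup F₀ P := fun hM => by
  have key : ∀ x, x ∈ F₀.toAddSubgroup := mu_all h.hF fun a ha => by
    have a0 : a ≠ 0 := by rintro rfl; simp at ha
    have h1 := h.tr_mem hM (h.in_dd ha (show (1 : Fin 5) ≠ 3 by decide))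
    have h2 := h.tr_mem hM (h.hd ![1, a, a ^ 2, a⁻¹ ^ 3, 1]
      (fun i => by fin_cases i <;> simp [ha, pow_right_comm _ _ (q + 1)])
      (by simp [Fin.prod_univ_five]; field_simp))
    simp [dd] at h1 h2
    by_cases e : a = 1
    · exact e ▸ F₀.one_mem
    have e2 : 3 - (a + a⁻¹ + 1) ≠ 0 := fun e2 => e (by
      field_simp at e2
      exact sub_eq_zero.1 (pow_eq_zero_iff (two_ne_zero) |>.1 (by linear_combination -e2)))
    have h3 := div_mem (add_mem (sub_mem h2 (pow_mem (sub_mem h1 F₀.one_mem) 2)) F₀.one_mem)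
      (sub_mem (natCast_mem F₀ 3) h1)
    change a ∈ F₀
    convert h3 using 1
    rw [eq_div_iff (by simpa using e2)]
    field_simp
    ring
  have h1 : Nat.card F₀ = Fintype.card F := by
    rw [show F₀ = ⊤ from eq_top_iff.2 fun x _ => key x, ← Nat.card_eq_fintype_card]
    exact Nat.card_congr Subfield.topEquiv.toEquiv
  rw [h1] at hc
  have h2 := Nat.pow_lt_pow_right (Fintype.one_lt_card (α := F)) (show 1 < r by omega)
  rw [← hc, pow_one] at h2
  exact lt_irrefl _ h2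

theorem key {l : ℕ} (hl : l.Prime) (hq : l ∣ q + 1) {P : Subgroup (GL (Fin 5) F)}
    (hP : ∀ t ∈ M, ∀ x ∈ P, t * x * t⁻¹ ∈ P) (hd : l ∣ Nat.card (Qt P)) : l ^ 4 ∣ Nat.card (Eg P l) := by
  haveI := Fact.mk hl
  obtain ⟨w, -, hw⟩ := H8.exists_orderOf_eq (F := F) (d := l) (hq.trans (by
    rw [h.hF]; simpa using Nat.sq_sub_sq q 1 ▸ Dvd.intro _ rfl))
  have w1 : w ≠ 1 := fun e => hl.one_lt.ne' (by rw [← hw, e, orderOf_one])
  have w2 : w ^ l = 1 := hw ▸ pow_orderOf_eq_one w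
  obtain ⟨y, hy, hs, ⟨k, hk⟩, hc⟩ := exists_cfix3 (eg_pg M l) (fun t ht => hP t ht.1) hd
  have e := diag_of_twist w1 (y := y) fun i j hij => by
    obtain ⟨g, hg, e⟩ := in_eg (h.in_dd (orderOf_dvd_iff_pow_eq_one.1 (hw ▸ hq)) hij) (dd_exp w2 i j)
    exact e ▸ hc g hg
  obtain ⟨i, hi⟩ : ∃ i, (y : M5 F) i i ≠ (y : M5 F) 0 0 := by
    by_contra hn
    push Not at hn
    exact hs (mem_scalars_of (c := (y : M5 F) 0 0) (by rw [e]; simp [hn, Matrix.smul_one_eq_diagonal]))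
  have hI : In P fun i => (y : M5 F) i i := ⟨y, hy, e⟩
  obtain ⟨c, hc⟩ := (mem_scalars_iff _).1 hk
  rw [Units.val_pow_eq_pow_val, e, Matrix.diagonal_pow, Matrix.smul_one_eq_diagonal] at hc
  have hc' := congrFun (Matrix.diagonal_injective hc)
  simp only [Pi.pow_apply] at hc'
  obtain ⟨n, h1, h2⟩ := exists_pow_ord (l := l) k (u := (y : M5 F) i i / (y : M5 F) 0 0)
    (by rw [div_pow, hc', hc', div_self c.ne_zero]) fun e => hi (div_eq_one_iff_eq (hI.ne 0) |>.1 e)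
  exact eg_card hl h1 h2 fun a b hab => by
    rw [← dd_pow]; exact (get_dd (fun π hπ => hP _ (h.hp π hπ)) hI hi hab).pow n

theorem key' {l : ℕ} (hl : l.Prime) (hq : l ∣ q + 1) {P : Subgroup (GL (Fin 5) F)}
    (hP : ∀ t ∈ M, ∀ x ∈ P, t * x * t⁻¹ ∈ P) (hd : l ∣ Nat.card (Qt P)) : l ^ 4 ∣ Nat.card P :=
  (h.key hl hq hP hd).trans (Subgroup.card_dvd_of_le fun _ hx => hx.1)

theorem not_660 (hq : q.Prime) {P : Subgroup (GL (Fin 5) F)} (hS : P ≤ specialLinear (Fin 5) F)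
    (hP : ∀ t ∈ M, ∀ x ∈ P, t * x * t⁻¹ ∈ P) : Nat.card (Qt P) ≠ 660 := fun hc => by
  obtain ⟨a, ha⟩ := card_mod hS
  rw [show Nat.card (P ⧸ (scalars (Fin 5) F).subgroupOf P) = 660 from hc] at ha
  rcases hq.eq_two_or_odd with rfl | h2
  · have := h.key' (l := 3) (by norm_num) dvd_rfl hP (by rw [hc]; norm_num)
    rw [ha] at this
    have := (Nat.Coprime.pow _ _ (by norm_num : Nat.Coprime 3 5)).dvd_of_dvd_mul_right this
    norm_num at this
  · have := h.key' (l := 2) (by norm_num) (by omega) hP (by rw [hc]; norm_num)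
    rw [ha] at this
    have := (Nat.Coprime.pow _ _ (by norm_num : Nat.Coprime 2 5)).dvd_of_dvd_mul_right this
    norm_num at this

theorem not_u42 (hq : q % 6 = 5) {P : Subgroup (GL (Fin 5) F)} (hS : P ≤ specialLinear (Fin 5) F)
    (hP : ∀ t ∈ M, ∀ x ∈ P, t * x * t⁻¹ ∈ P) (hs : Sm (Nat.card (Qt P))) {z : Qt P} (h9 : z ^ 9 = 1) : z ^ 3 = 1 := by
  haveI : Fact (Nat.Prime 3) := ⟨by norm_num⟩
  obtain ⟨a, ha⟩ := card_mod hS
  obtain ⟨g, rfl⟩ := QuotientGroup.mk_surjective z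
  have h1 : (g ^ 5) ^ 3 ^ 2 = 1 := by
    rw [← pow_mul, mul_comm, pow_mul]
    exact Subtype.ext (scalar_five ((QuotientGroup.eq_one_iff (g ^ 9)).1 h9) (hS (g ^ 9).2))
  have h2 := syl_exp (p := 3) (n := 4) (E := (Eg P 3).subgroupOf P) (fun x hx => Subtype.ext hx.2.2) (by
    rw [Nat.card_congr (Subgroup.subgroupOfEquivOfLe (H := Eg P 3) fun _ hx => hx.1).toEquiv]
    exact h.key (by norm_num) (by omega) hP hs.1) (fun hd => by
      rw [ha] at hd
      have := ((Nat.Coprime.pow _ _ (by norm_num : Nat.Coprime 3 5)).dvd_of_dvd_mul_right hd).trans hs.2.2.2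
      norm_num at this) h1
  have h3 : (g : Qt P) ^ 15 = 1 := by rw [← QuotientGroup.mk_pow, show 15 = 5 * 3 from rfl, pow_mul, h2]; rfl
  exact pow_gcd_eq_one.2 ⟨h9, h3⟩

end St

/-- what is needed about the residual class -/
def ResU2 (F : Type*) [Field F] [Fintype F] (q : ℕ) : Prop :=
  ∀ H : Subgroup (GL (Fin 5) F), IsMaximalIn (GU 5 F q ⊓ specialLinear (Fin 5) F) H → InUnitaryResidualClass H →
    ∃ P, IsResidualCore H P ∧ q.Prime ∧ Sm (Nat.card (Qt P)) ∧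
      (Nat.card (Qt P) = 660 ∨ (q % 6 = 5 ∧ ∃ z : Qt P, z ^ 9 = 1 ∧ z ^ 3 ≠ 1))

theorem ResU2.res {q : ℕ} (h : ResU2 F q) : ResU F q := fun H h1 h2 =>
  (h H h1 h2).imp fun _ h => ⟨h.1, h.2.1, h.2.2.1, h.2.2.2.imp id And.left⟩

theorem St.mono_of_max {q : ℕ} {M : Subgroup (GL (Fin 5) F)} (h : St q M) (hr : ResU2 F q)
    (hmax : IsMaximalIn (GU 5 F q ⊓ specialLinear (Fin 5) F) M) {g : GL (Fin 5) F} (hg : g ∈ M) (i : Fin 5) :
    ∃ j, (g : M5 F) *ᵥ Pi.single i 1 ∈ F ∙ (Pi.single j 1 : Fin 5 → F) := by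
  have hF := h.hF
  rcases S5796.result q hF M hmax with ⟨W, h0, h1, rfl⟩ | ⟨W, h0, -, h1, rfl⟩ | ⟨D, hD, rfl⟩ | ⟨-, K', hK', -, rfl⟩ |
    ⟨F₀, r, P, hr, -, hc, -, rfl⟩ | ⟨-, F₀, P, hc, -, rfl⟩ | ⟨p, R', -, -, hq, r1, r2, -, r4, r3, rfl⟩ | hres
  · refine absurd inf_le_left (h.not_stab h0 ?_)
    rintro rfl
    have := h1 (Pi.single 0 1) trivial (Pi.single 0 1) trivial
    rw [hermForm_eq hF, gf_single] at this
    simp at this
  · refine absurd inf_le_left (h.not_stab h0 ?_)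
    rintro rfl
    simp at h1
  · exact h.frame hD.decomp inf_le_left hg i
  · exact absurd inf_le_left (h.not_field hK')
  · exact absurd inf_le_left (h.not_sub hr.two_le hc)
  · exact absurd inf_le_left (h.not_sub le_rfl hc)
  · have h5 : q % 5 = 4 := by
      rcases hq with ⟨rfl, h⟩ | ⟨rfl, h | h⟩
      · exact h
      · rw [Nat.pow_mod, h]
      · rw [Nat.pow_mod, h]
    have := h.key' (l := 5) (P := R') (by norm_num) (by omega)
      (fun t ht x hx => (Subgroup.mem_normalizer_iff.1 ht.1 x).1 hx) (by rw [(c6_uni r1 r2 r3).qt]; norm_num)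
    rw [r4] at this
    norm_num at this
  · obtain ⟨P, hP, hq, hs, hc | ⟨h6, z, h9, h3⟩⟩ := hr M hmax hres
    · exact absurd hc (h.not_660 hq (hP.le.trans (hmax.1.le.trans inf_le_right)) hP.normal)
    · exact absurd (h.not_u42 h6 (hP.le.trans (hmax.1.le.trans inf_le_right)) hP.normal hs h9) h3

theorem su_frame {q : ℕ} (hF : Fintype.card F = q ^ 2) (hr : ResU2 F q) (D : Fin 5 → Submodule F (Fin 5 → F))
    (hD : IsNondegenerateMDecomposition (hermForm 5 F q) 1 D) :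
    IsMaximalIn (GU 5 F q ⊓ specialLinear (Fin 5) F)
      (decompositionStabilizer D ⊓ (GU 5 F q ⊓ specialLinear (Fin 5) F)) := by
  have hD' := hermForm_eq hF 5 ▸ hD
  refine max_of (lt_of_le_not_ge inf_le_right fun hle => H5.SU.not_le_frame (herm_one hF) (qInv_ne hF) hD' (by norm_num)
    (H5.SU.SUn_eq (n := 5) hF ▸ hle.trans inf_le_left)) fun M hM hmax => ?_
  obtain ⟨b, hb, hb'⟩ := H5.SU.exists_on_decomp (herm_one hF) (qInv_ne hF) hD'
  have h1 : H5.SU.ON (qInv hF) 1 fun i => b (i, 0) := fun i j => by simpa using hb' (i, 0) (j, 0)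
  obtain ⟨P, hP⟩ := exists_frame_of_linearIndependent (Equiv.refl _) h1.indep
  have h2 : pbG (qInv hF) (Equiv.refl _) P 1 = 1 := by
    ext i j
    rw [pbG_apply, hP, hP, h1, Matrix.one_apply]
  have h3 : ∀ i, D i = F ∙ b (i, 0) := fun i =>
    (Submodule.eq_of_le_of_finrank_eq ((Submodule.span_singleton_le_iff_mem _ _).2 (hb i 0))
      (by rw [finrank_span_singleton (h1.ne_zero i), hD.decomp.finrank_eq])).symm
  have hS : ∀ g, trGL (Equiv.refl _) P g ∈ H5.SU.SUn 5 F q ↔ g ∈ H5.SU.SUn 5 F q := fun g => by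
    rw [H5.SU.SUn_eq hF, H5.SU.trGL_mem_SUG, h2]
  have key : ∀ g ∈ H5.SU.SUn 5 F q, (∀ i, ∃ j, (g : M5 F) *ᵥ Pi.single i 1 ∈ F ∙ (Pi.single j 1 : Fin 5 → F)) →
      trGL (Equiv.refl _) P g ∈ decompositionStabilizer D ⊓ H5.SU.SUn 5 F q := fun g hg h =>
    ⟨mem_stab_of hD.decomp h3 fun i => (h i).imp fun j hj => by
      obtain ⟨c, hc⟩ := Submodule.mem_span_singleton.1 hj
      rw [← hP i, coe_trGL, tr_mulVec, ← hc, trv_smul, hP]
      exact (D j).smul_mem c (hb j 0), (hS g).2 hg⟩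
  have hN := H5.SU.max_comap (trGL (Equiv.refl _) P) hS hmax
  have hT : St q (M.comap (trGL (Equiv.refl _) P).toMonoidHom) := ⟨hF, fun d e1 e2 => by
    refine ⟨Matrix.GeneralLinearGroup.mkOfDetNeZero (Matrix.diagonal d) (by simp [e2]), hM (key _ ⟨fun u v => ?_,
      mem_SL.2 (Matrix.det_diagonal.trans e2)⟩ fun i => ⟨i, Submodule.mem_span_singleton.2 ⟨d i, ?_⟩⟩), rfl⟩
    · change hermForm 5 F q (Matrix.diagonal d *ᵥ u) (Matrix.diagonal d *ᵥ v) = _
      refine Finset.sum_congr rfl fun i _ => ?_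
      rw [Matrix.mulVec_diagonal, Matrix.mulVec_diagonal, mul_pow]
      linear_combination (u i * v i ^ q) * e1 i
    · change _ = Matrix.diagonal d *ᵥ _
      rw [Matrix.diagonal_mulVec_single, ← Pi.single_smul, smul_eq_mul],
    fun π hπ => hM (key _ ⟨pm_gu q π, pm_sl hπ⟩ fun i => ⟨π i, pm_single (F := F) π i ▸
      Submodule.mem_span_singleton_self _⟩)⟩
  intro g hg
  obtain ⟨g, rfl⟩ := (trGL (Equiv.refl _) P).surjective g
  exact key g (hN.1.le hg) (hT.mono_of_max hr hN hg)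

open L4.GU L4.H in
/-- an element of order nine -/
def z9 : Mt Q4 := S (vec 1) * S (vec 1) * S (vec 4) * S (vec 21)

open L4.GU L4.H in
theorem z9_facts : Un z9 ∧ Un (S (vec 84)) ∧ z9 * z9 * z9 * z9 * z9 * z9 * z9 * z9 * z9 = 1 ∧
    z9 * z9 * z9 * S (vec 84) ≠ S (vec 84) * (z9 * z9 * z9) := by decide +kernel

open L4.GU L4.H in
theorem nine {K : Type} [Field K] [Fintype K] (hK : Fintype.card K = 4) : ∃ z : PSU 4 K 2, z ^ 9 = 1 ∧ z ^ 3 ≠ 1 := by
  let φ : Q4 ≃+* K := FiniteField.ringEquivOfCardEq (by rw [hK]; decide)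
  have hi : Function.Injective (suMap φ 4 2) := Function.LeftInverse.injective (suMap_inv φ 4 2)
  obtain ⟨h1, h2, h3, h4⟩ := z9_facts
  let a : SU 4 Q4 2 := ⟨⟨z9, h1.1⟩, h1.herm⟩
  let b : SU 4 Q4 2 := ⟨⟨S (vec 84), h2.1⟩, h2.herm⟩
  have ha : a ^ 9 = 1 := Subtype.ext (Subtype.ext (by
    simp only [pow_succ, pow_zero, one_mul]; exact h3))
  refine ⟨QuotientGroup.mk (suMap φ 4 2 a), by rw [← QuotientGroup.mk_pow, ← map_pow, ha, map_one]; rfl, fun e => ?_⟩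
  have := Subgroup.mem_center_iff.1 ((QuotientGroup.eq_one_iff (suMap φ 4 2 a ^ 3)).1 e) (suMap φ 4 2 b)
  rw [← map_pow, ← map_mul, ← map_mul, show a ^ 3 = a * a * a by simp only [pow_succ, pow_zero, one_mul]] at this
  exact h4 (congrArg (fun z : SU 4 Q4 2 => z.1.1) (hi this)).symm

theorem resU2_of {q : ℕ}
    (h : ∀ (H : Subgroup (Matrix.GeneralLinearGroup (Fin 5) F)) (_ : Cfsg.Geo.IsMaximalIn (Cfsg.GU 5 F q ⊓ Cfsg.Geo.specialLinear (Fin 5) F) H) (_ : Cfsg.Geo.InUnitaryResidualClass H),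
    ∃ P : Subgroup (Matrix.GeneralLinearGroup (Fin 5) F), Cfsg.Geo.IsResidualCore H P ∧ q.Prime ∧
    ((Nonempty ((P ⧸ (Cfsg.Geo.scalars (Fin 5) F).subgroupOf P) ≃* Matrix.ProjectiveSpecialLinearGroup (Fin 2) (ZMod 11)) ∧ (q % 11 = 2 ∨ q % 11 = 6 ∨ q % 11 = 7 ∨ q % 11 = 8 ∨ q % 11 = 10)) ∨
     ((∃ (K : Type) (_ : Field K) (_ : Fintype K), Fintype.card K = 4 ∧ Nonempty ((P ⧸ (Cfsg.Geo.scalars (Fin 5) F).subgroupOf P) ≃* Cfsg.PSU 4 K 2)) ∧ q % 6 = 5)) ) : ResU2 F q := fun H h1 h2 => by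
  obtain ⟨P, hP, hq, ⟨⟨e⟩, -⟩ | ⟨⟨K, _, _, hK, ⟨e⟩⟩, h6⟩⟩ := h H h1 h2
  · refine ⟨P, hP, hq, Nat.card_congr e.toEquiv ▸ sm_l211, Or.inl ?_⟩
    haveI : Fact (Nat.Prime 11) := ⟨by norm_num⟩
    have := O5.card_psl (E := ZMod 11) (by simp) (by simp; decide)
    rw [ZMod.card] at this
    rw [Nat.card_congr e.toEquiv]
    omega
  · obtain ⟨z, h9, h3⟩ := nine hK
    exact ⟨P, hP, hq, Nat.card_congr e.toEquiv ▸ sm_u42 hK, Or.inr ⟨h6, e.symm z, by rw [← map_pow, h9, map_one],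
      fun e3 => h3 (by rwa [← map_pow, map_eq_one_iff _ e.symm.injective] at e3)⟩⟩

end Cfsg.Agent.X5
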