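import Cfsg.Agent.H1.U4A

/-!
Unitary spaces: stabilisers of non-degenerate subspaces with complement of dimension at least three.
-/

set_option autoImplicit false
set_option linter.unusedSectionVars false

namespace Cfsg.Agent.X5.N

open Module H7 H7.Polar H8 H9.UDec H1 H1.U4

variable {F : Type*} [Field F] {V : Type*} [AddCommGroup V] [Module F V] {P : Polar F V}
variable [Finite F] [FiniteDimensional F V]

theorem hval (h : Un P) {M : Submodule F V} (hM : M ⊓ P.perp M = ⊥) (hd : 3 ≤ finrank F M) {u : V} (huM : u ∈ M)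
    (c : F) : ∃ y ∈ M, P.B y u = 0 ∧ P.Val y c := by
  obtain ⟨w, hw, w', hw', hww⟩ := exists_nonperp_pair (P := P) huM (by rw [hM]; simpa using hd)
  obtain ⟨y, hy, hy1⟩ : ∃ y ∈ M ⊓ P.pp u, P.B y y = 1 := by
    by_contra hcon
    exact hww (B_eq_zero_of_forall_isotropic h.σ (U := M ⊓ P.pp u) (fun x hx => by
      by_contra h1; exact hcon (exists_unit_vector h.σ h.ε hx h1)) hw hw')
  have hyu : P.B y u = 0 := hy.2
  obtain ⟨a, ha⟩ := h.exists_nm (t := c + P.σ c) (by simp [add_comm])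
  refine ⟨a • y, M.smul_mem _ hy.1, by simp [hyu], ?_⟩
  rw [val_iff_of_unitary h.σ h.ε]
  simp [hy1, ← ha, nm, mul_comm]

theorem nondeg (h : Un P) (hn : 4 ≤ finrank F V) {W : Submodule F V}
    (hW : W ⊓ P.perp W = ⊥) (h0 : W ≠ ⊥) (hd : 3 ≤ finrank F (P.perp W)) (hlt : 2 * finrank F W < finrank F V) :
    Geo.IsMaximalIn P.E (stab W ⊓ P.E) := by
  have hM0 := P.finrank_perp W
  refine isMaximalIn_of inf_le_right ?_ fun X hH hXE g hg hg' => ?_
  · obtain ⟨g, h1, h2⟩ := Polar.exists_E_notMem_stab (wild2 h) (by omega) (by omega) h0 (by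
      rintro rfl; rw [finrank_top] at hlt; omega)
    exact ⟨g, h1, fun h => h2 h.1⟩
  have hI := E_le_Iso (hXE hg)
  have hgW : g ∉ stab W := fun h => hg' ⟨h, hXE hg⟩
  obtain ⟨c₀, hc0, hc₀⟩ := exists_lam_ne_of_unitary h.σ h.ε
  have core : ∀ u ∈ P.perp W, ∀ hus : P.Val u 0, u ≠ 0 → ∀ p ∈ W, p ≠ 0 → p ∈ P.eSub X hus → P.E ≤ X :=
    fun u hu hus hu0 p hp hp0 hp' => E_le_of_nondeg_core hW hH (rc h hn) hd (Or.inl ⟨c₀, hc0, hc₀⟩) hu hus hu0
      (hval h (inf_perp_perp hW) hd hu) hp hp0 hp'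
  have hM1 : ∀ e ∈ P.perp W, ∀ w ∈ P.perp W, ∀ c, P.Val e 0 → P.B w e = 0 → P.Val w c → P.EI X e w c :=
    fun e he w hw c h1 h2 h3 => EI_of_mem h1 h2 h3 (hH ⟨eichE_mem_stab_of_perp h1 h2 h3 he hw, eichE_mem_E _ _ _⟩)
  have hM := EI_map (X := X) (M := P.perp W) hM1 hg hI
  set M' := (P.perp W).map (g : V →ₗ[F] V) with hM'
  have hdim : finrank F M' = finrank F (P.perp W) := LinearEquiv.finrank_map_eq g (P.perp W)
  have hnd : M' ⊓ P.perp M' = ⊥ := inf_perp_map hI (inf_perp_perp hW)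
  have key : ∀ U : Submodule F V, ¬ M' ≤ U → ∃ e ∈ M', P.Val e 0 ∧ e ∉ U := by
    intro U hU
    obtain ⟨z, hz, hz'⟩ : ∃ z ∈ P.perp U, z ∉ P.perp M' := by
      by_contra! h
      exact hU (by simpa [perp_perp] using perp_anti (P := P) h)
    obtain ⟨e, he, hes, hze⟩ := Sub4.exists_sing_ne2 (wild2 h) hz' (by rw [hnd, finrank_bot]; omega)
    exact ⟨e, he, hes, fun h => hze (mem_perp'.1 hz e h)⟩
  obtain ⟨a, ha, has, haW, haM⟩ : ∃ a ∈ M', P.Val a 0 ∧ a ∉ W ∧ a ∉ P.perp W := by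
    obtain ⟨e1, he1, hs1, h1⟩ := key W fun h => by have := Submodule.finrank_mono h; omega
    obtain ⟨e2, he2, hs2, h2⟩ := key (P.perp W) fun h => hgW ((mem_stab_perp_iff hI).1
      (mem_stab_iff_map.2 (Submodule.eq_of_le_of_finrank_eq h hdim)))
    by_cases h3 : e1 ∈ P.perp W
    · by_cases h4 : e2 ∈ W
      · exact ⟨e1 + e2, M'.add_mem he1 he2, by simpa using val_add_orth hs1 hs2 (h3 e2 h4),
          by rwa [W.add_mem_iff_left h4], by rwa [Submodule.add_mem_iff_right _ h3]⟩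
      · exact ⟨e2, he2, hs2, h4, h2⟩
    · exact ⟨e1, he1, hs1, h1, h3⟩
  have ta : TX P X a := ⟨has, fun c hc => hM a ha 0 M'.zero_mem c has (by simp) hc⟩
  obtain ⟨p, hp, m, hm, rfl⟩ := exists_decomp hW a
  have hp0 : p ≠ 0 := by rintro rfl; exact haM (by simpa using hm)
  have hm0 : m ≠ 0 := by rintro rfl; exact haW (by simpa using hp)
  have hpm : P.B p m = 0 := mem_perp'.1 hm p hp
  by_cases hms : P.Val m 0
  · have hps : P.Val p 0 := by
      rw [val_iff_of_unitary h.σ h.ε] at has hms ⊢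
      simpa [hpm, P.B_symm hpm, (by simpa using hms : P.B m m = 0)] using has
    have tp : TX P X p := ⟨hps, fun c hc => EI_of_mem hps (by simp) hc
      (hH ⟨eichE_mem_stab_of_mem hps (by simp) hc hp W.zero_mem, eichE_mem_E _ _ _⟩)⟩
    have tm : TX P X m := ⟨hms, fun c hc => hM1 m hm 0 (Submodule.zero_mem _) c hms (by simp) hc⟩
    have hz : (-P.σ c₀ • p) ∈ P.zSub X hms :=
      ⟨by simp [hpm], 0, sing_smul hps _, tm.EI tp (add_comm p m ▸ ta) (P.B_symm hpm) hc₀⟩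
    refine core m hm hms hm0 _ (W.smul_mem (-P.σ c₀) hp) (by simp [hc0, hp0]) (Sing.mem_eSub_of_forall fun b => ?_)
    by_cases hb : b = 0
    · simp [hb]
    have hb' : P.σ b ≠ 0 := by simpa using hb
    obtain ⟨k, hk, h1, h2⟩ := exists_torus h hn (inf_perp_perp hW) hd hm hms hm0 hb'
    rw [perp_perp] at h2
    have := map_mem_zSub hms (hH ⟨mem_stab_of_forall fun x hx => by rwa [h2 x hx], hk⟩)
      (E_le_Iso hk) hb' h1 hz
    rwa [σσ, h2 _ (W.smul_mem _ hp)] at this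
  obtain ⟨u, hu, hu0, hus⟩ := wild2 h (P.perp W ⊓ P.pp (p + m)) (by
    have := finrank_inf_pp_ge (P := P) (P.perp W) (p + m)
    omega)
  obtain ⟨w1, hw1, hw1a⟩ : ∃ w1 ∈ P.perp W ⊓ P.pp u, P.B w1 (p + m) ≠ 0 := by
    by_contra! h'
    have h1 : m ∈ P.perp (P.perp W ⊓ P.pp u) := mem_perp'.2 fun x hx => by
      simpa [P.B_symm (mem_perp'.1 hx.1 p hp)] using h' x hx
    rw [perp_inf, perp_pp, mem_sup_span_singleton] at h1
    obtain ⟨x, hx, s, e⟩ := h1
    have : x ∈ P.perp W ⊓ P.perp (P.perp W) := ⟨by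
      rwa [e, Submodule.add_mem_iff_left _ (Submodule.smul_mem _ s hu.1)] at hm, hx⟩
    rw [inf_perp_perp hW, Submodule.mem_bot] at this
    rw [this, zero_add] at e
    exact hms (e ▸ sing_smul hus s)
  obtain ⟨p', hp', hp0', hp''⟩ := exists_eSub_of_fix hW hH hu.1 hus
    (y := eichE has (w := 0) (by simp) hc₀) (ta.mem hc₀) (eichE_mem_Iso _ _ _)
    (eich_fix c₀ hu.2 (by simp)) hw1.1 hw1.2 (by
      simp only [eichE_apply, eich, smul_zero, add_zero, map_zero, mul_zero, zero_add]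
      rwa [Submodule.sub_mem_iff_right _ hw1.1, Submodule.smul_mem_iff _ (mul_ne_zero (by simpa using hc0) hw1a)])
  exact core u hu.1 hus hu0 p' hp' hp0' hp''

open Geo in
theorem su_nondeg {F : Type*} [Field F] [Fintype F] {q : ℕ} (hF : Fintype.card F = q ^ 2)
    (W : Submodule F (Fin 5 → F)) (hW0 : W ≠ ⊥)
    (hW : IsNondegenerateOn (hermForm 5 F q) W) (hdim : 2 * finrank F W < 5) :
    IsMaximalIn (GU 5 F q ⊓ specialLinear (Fin 5) F)
      (subspaceStabilizer W ⊓ (GU 5 F q ⊓ specialLinear (Fin 5) F)) := by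
  refine isMaximalIn_of_equiv toLE (Small.mem_SU_iff hF (by norm_num)) (fun g => ?_)
    (nondeg (P := uStd hF 5) ⟨GenSU.σ_ne hF, rfl⟩ (by simp)
      ((inf_perp_iff_nondegenerateOn _ (fun _ _ => rfl)).2 hW) hW0 ?_ (by simpa using hdim))
  · rw [Subgroup.mem_inf, Small.mem_SU_iff hF (by norm_num), mem_subspaceStabilizer_iff, Subgroup.mem_inf]
  · have := (uStd hF 5).finrank_perp W
    simp at this
    omega

end Cfsg.Agent.X5.N
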