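import Cfsg.Agent.X5.O1
import Cfsg.Agent.H1.Small

/-!
The subgroups `O_5(q)` of `SU_5(q)` are maximal for odd `q`.
-/

set_option autoImplicit false
set_option linter.unusedSectionVars false

namespace Cfsg.Agent.X5.Or

open Module H7 H7.Polar H8 H9.UDec H1 H1.U4

variable {F : Type*} [Field F] {V : Type*} [AddCommGroup V] [Module F V] {P : Polar F V}
variable [Finite F] [FiniteDimensional F V] {F₀ : Subfield F}

namespace O5

variable {R : RatStr F₀ V} {X : Subgroup (V ≃ₗ[F] V)} (h : O5 P R X)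
include h

section

variable {T : V →+ V} (hs : ∀ (a : F) x, T (a • x) = P.σ a • T x)
  (hB : ∀ x y, P.B (T x) (T y) = P.σ (P.B x y)) {x : V} (hxs : P.Val x 0) (hx : T x = x)
  (hc : ∀ k ∈ X, k x = x → ∀ v, T (k v) = k (T v)) (hτ : R.τ x ∉ F ∙ x)
include hs hB hxs hx hc hτ

theorem B_τ_ne : P.B x (R.τ x) ≠ 0 := fun h1 => by
  have h2 := h.two
  obtain ⟨j, hj0, hj⟩ := exists_lam_ne_of_unitary h.un.σ h.un.ε
  replace hj := h.un.lam.1 hj
  have hxx := sing_B hxs
  have hyy : P.B (R.τ x) (R.τ x) = 0 := by rw [h.B_τ, hxx, map_zero]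
  have h1' := P.B_symm h1
  obtain ⟨k, hk, h3⟩ := h.mem (x + R.τ x) (j • (x - R.τ x)) 0 (by rw [map_add, h.ττ, add_comm])
    (by rw [h.τ_smul, hj, map_sub, h.ττ]; module) F₀.zero_mem
    (h.un.sing.2 (by simp [hxx, hyy, h1, h1'])) (by simp [hxx, hyy, h1, h1'])
    (h.un.sing.2 (by simp [hxx, hyy, h1, h1']))
  have h4 : ∀ v, k v = v + (2 * j * P.B v x) • x - (2 * j * P.B v (R.τ x)) • R.τ x := fun v => by
    simp only [h3, eich, h.un.ε, map_add, map_sub, B_smul_right, hj, map_zero]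
    module
  have h5 : x ∉ F ∙ R.τ x := fun h5 => by
    obtain ⟨a, ha⟩ := Submodule.mem_span_singleton.1 h5
    refine hτ (Submodule.mem_span_singleton.2 ⟨P.σ a, ?_⟩)
    conv_rhs => rw [← ha, h.τ_smul, h.ττ]
  obtain ⟨v, hv, hv'⟩ := exists_sep' (P := P) h5 1
  replace hv : P.B v (R.τ x) = 0 := hv _ (Submodule.mem_span_singleton_self _)
  have h6 := hc k hk (by simp [h4, hxx, h1]) v
  have h7 := hB v x
  rw [hx, hv', map_one] at h7
  simp only [h4, hv, hv', h7, map_add, map_sub, hs, hx, map_mul, hj, map_ofNat, map_one,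
    map_zero] at h6
  refine h5 (Submodule.mem_span_singleton.2 ⟨P.B (T v) (R.τ x) / 2, ?_⟩)
  refine smul_right_injective V (mul_ne_zero (mul_ne_zero h2 h2) hj0) ?_
  linear_combination (norm := skip) h6
  match_scalars <;> field_simp <;> ring

theorem exists_common : ∃ z, z ≠ 0 ∧ P.Val z 0 ∧ R.τ z = z ∧ T z ∈ F ∙ z := by
  have h2 := h.two
  have h1 := h.B_τ_ne hs hB hxs hx hc hτ
  have h1' := P.B_ne_symm h1
  have hxx := sing_B hxs
  have hyy : P.B (R.τ x) (R.τ x) = 0 := by rw [h.B_τ, hxx, map_zero]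
  set M := P.pp x ⊓ P.pp (R.τ x) with hMdef
  have hM : R.Inv M := fun v hv => ⟨by
    have := h.B_τ v (R.τ x)
    rwa [h.ττ, mem_pp.1 hv.2, map_zero] at this, by
    show P.B _ _ = 0
    rw [h.B_τ, mem_pp.1 hv.1, map_zero]⟩
  have hnd : ∀ v ∈ M, v ∈ P.perp M → v = 0 := fun v hv hv' => P.nondeg v fun y => by
    have h3 := hv' (y - (P.B y (R.τ x) / P.B x (R.τ x)) • x - (P.B y x / P.B (R.τ x) x) • R.τ x)
      ⟨by simp [hxx, h1'], by simp [hyy, h1]⟩
    exact P.B_symm (by simpa [mem_pp.1 hv.1, mem_pp.1 hv.2] using h3)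
  have hd : 3 ≤ finrank F M := by
    have := finrank_inf_pp_ge (P := P) ⊤ x
    have d1 : finrank F (P.pp x) ≤ finrank F M + 1 := finrank_inf_pp_ge (P := P) (P.pp x) (R.τ x)
    have := h.dim
    rw [top_inf_eq, finrank_top] at *
    omega
  obtain ⟨u, huM, hu, hus, h0⟩ := h.ok.exists_sing h.wild hM ⊥ (by rw [finrank_bot]; omega)
  replace h0 : u ≠ 0 := h0
  have huu := sing_B hus
  obtain ⟨y, hyM, hy, hy'⟩ := RatOK.exists_B_ne (P := P) (R := R) hM (z := u) fun e => h0 (hnd u huM e)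
  obtain ⟨f, hfM, hf, hff, huf, hfu⟩ : ∃ f ∈ M, R.τ f = f ∧ P.B f f = 0 ∧ P.B u f = 1 ∧ P.B f u = 1 := by
    have e1 := h.σB hy hu
    have e2 := h.σB hy hy
    have e3 := h.symm hy hu
    refine ⟨(P.B y u)⁻¹ • y - (P.B y y / (2 * P.B y u ^ 2)) • u, sub_mem (M.smul_mem _ hyM) (M.smul_mem _ huM),
      ?_, ?_, ?_, ?_⟩
    · simp [h.θσ, hy, hu, e1, e2, map_ofNat]
    all_goals simp [e1, e2, e3, huu, hy', map_ofNat]
    field_simp
    ring
  obtain ⟨w, hw, w', hw', hww⟩ := exists_nonperp_pair (P := P) huM (by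
    rw [show M ⊓ P.perp M = ⊥ from eq_bot_iff.2 fun v hv => hnd v hv.1 hv.2]; simpa using hd)
  obtain ⟨m, hm, hm1, hA⟩ := h.exists_aniso (hM.inf (h.ok.inv_pp hu)) fun e => hww (mem_perp'.1 (e hw') w hw)
  have hmu : P.B m u = 0 := hm.2
  obtain ⟨k, hk, h3⟩ := h.mem u m (P.B m m / 2) hu hm1 (h.real.2 (by rw [map_div₀, h.un.σB, map_ofNat])) hus hmu
    (h.val_half m)
  have h4 := hc k hk (by rw [h3, eich_fix _ (P.B_symm huM.1) (P.B_symm hm.1.1)]) u
  rw [h3, h3, eich_fix _ huu (P.B_symm hmu)] at h4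
  have h5 : P.B (T u) u = 0 := by
    have := congrArg (P.B · m) h4
    simpa [eich, P.B_symm hmu, hA] using this
  have e1 : P.B (u + f) (u + f) = 2 := by simp [huu, hff, huf, hfu, one_add_one_eq_two]
  have e2 : P.B (u - f) (u - f) = -2 := by
    simp only [map_sub, LinearMap.sub_apply, huu, hff, huf, hfu]; ring
  obtain ⟨k', hk', -, h6⟩ := h.exists_rot (a := u + f) (b := u - f) (by simp [hu, hf]) (by simp [hu, hf])
    (by rw [e1]; exact h2) (by rw [e2]; simpa using h2)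
  have h7 : ∀ v, k' v = v - (2 * P.B v f) • u - (2 * P.B v u) • f := fun v => by
    rw [h6, rr, rr, e1, e2]
    simp only [map_add, map_sub, map_smul, LinearMap.sub_apply, LinearMap.smul_apply, huu, hff, huf, hfu, smul_eq_mul]
    match_scalars <;> field_simp <;> ring
  have h8 := hc k' hk' (by rw [h7, P.B_symm huM.1, P.B_symm hfM.1]; simp) u
  rw [h7, h7, huu, huf, h5, show u - (2 * 1 : F) • u - (2 * 0 : F) • f = -u by module, map_neg] at h8
  refine ⟨u, h0, hus, hu, Submodule.mem_span_singleton.2 ⟨P.B (T u) f, smul_right_injective V h2 ?_⟩⟩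
  linear_combination (norm := skip) h8
  module

end

theorem mem_N (hX : ¬ P.E ≤ X) {g : V ≃ₗ[F] V} (hg : g ∈ X) :
    g ∈ R.N := by
  by_contra hgN
  have hI := h.iso hg
  let T : V →+ V := g.toLinearMap.toAddMonoidHom.comp (R.τ.comp g.symm.toLinearMap.toAddMonoidHom)
  have hT : ∀ v, T v = g (R.τ (g.symm v)) := fun _ => rfl
  have hs : ∀ (a : F) x, T (a • x) = P.σ a • T x := fun a x => by simp [hT, h.τ_smul]
  have hB : ∀ x y, P.B (T x) (T y) = P.σ (P.B x y) := fun x y => by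
    rw [hT, hT, Iso.B hI, h.B_τ, ← Iso.B hI, g.apply_symm_apply, g.apply_symm_apply]
  have hτ : ∀ u, R.τ u = u → P.Val u 0 → u ≠ 0 → R.τ (g u) ∉ F ∙ g u := fun u hu hus h0 h1 =>
    hgN (h.mem_N_of_real hX (by rw [hu]; exact Submodule.mem_span_singleton_self u) hus h0 hg h1)
  have hd4 := h.dim
  obtain ⟨u, -, hu, hus, h0⟩ := h.ok.exists_sing h.wild RatStr.inv_top ⊥ (by
    rw [finrank_top, finrank_bot]; omega)
  obtain ⟨z, hz0, hzs, hz1, hz⟩ := h.exists_common hs hB (Iso.val hI hus) (by simp [hT, hu]) (fun k hk h1 v => by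
    obtain ⟨c, hc⟩ := h.mem_N_of_fix hX hu hus h0 (mul_mem (mul_mem (inv_mem hg) hk) hg) (l := 1)
      (by simp [h1])
    have h2 : (c : F) = 1 := by
      have := hc u
      simp only [LinearEquiv.mul_apply, hu, h1, LinearEquiv.coe_inv, g.symm_apply_apply] at this
      exact smul_left_injective F h0 (by simpa using this.symm)
    simpa [hT, h2] using congrArg g (hc (g.symm v))) (hτ u hu hus h0)
  obtain ⟨p, h6⟩ := Submodule.mem_span_singleton.1 hz
  refine hgN (h.mem_N_of_real hX (u := g.symm z) (Submodule.mem_span_singleton.2 ⟨p, ?_⟩)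
    (Iso.val (P.Iso.inv_mem hI) hzs) (by simpa using hz0) hg
    (by rw [g.apply_symm_apply, hz1]; exact Submodule.mem_span_singleton_self z))
  rw [← map_smul, h6, hT, g.symm_apply_apply]

end O5

theorem N_maximal_orth (un : Un P) {R : RatStr F₀ V} (ok : P.RatOK R) (two : (2 : F) ≠ 0)
    (hθ : ∀ a, R.θ a = P.σ a) (hττ : ∀ x, R.τ (R.τ x) = x) (hn : finrank F V = 5) : Geo.IsMaximalIn P.E (R.N ⊓ P.E) := by
  refine isMaximalIn_of inf_le_right ?_ fun X hHX hXE g hg hgH => ?_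
  · have h : O5 P R P.E := ⟨un, ok, two, hθ, hττ, hn, inf_le_right, le_rfl⟩
    obtain ⟨u, -, hu, hus, h0⟩ := h.ok.exists_sing h.wild RatStr.inv_top ⊥ (by
      rw [finrank_top, finrank_bot]; omega)
    obtain ⟨f, hf, hff, huf, hfu⟩ := h.exists_partner hu (sing_B hus) h0
    obtain ⟨c, hc0, hc⟩ := exists_lam_ne_of_unitary un.σ un.ε
    refine ⟨eichE hus (by simp) hc, eichE_mem_E _ _ _, fun ⟨⟨d, hd⟩, _⟩ => ?_⟩
    have h1 := congrArg (P.B · f) (hd u)
    have h2 := congrArg (P.B · f) (hd f)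
    simp [eich, sing_B hus, hu, hf, huf, hfu, hff, hθ, un.lam.1 hc] at h1 h2
    rw [← h1] at h2
    exact hc0 ((mul_eq_zero.1 (show 2 * c = 0 by linear_combination -h2)).resolve_left two)
  · by_contra hX
    exact hgH ⟨O5.mem_N ⟨un, ok, two, hθ, hττ, hn, hHX, hXE⟩ hX hg, hXE hg⟩

open Geo in
theorem su_orth {F : Type*} [Field F] [Fintype F] {q : ℕ} (hF : Fintype.card F = q ^ 2)
    (hodd : Odd q) (F₀ : Subfield F) (P : GL (Fin 5) F)
    (hcard : Fintype.card F = Nat.card F₀ ^ 2)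
    (hP : IsFormRationalStructure (hermForm 5 F q) F₀ 1 P) :
    IsMaximalIn (GU 5 F q ⊓ specialLinear (Fin 5) F)
      (subfieldSubgroup F₀ P ⊓ (GU 5 F q ⊓ specialLinear (Fin 5) F)) := by
  have hq : Nat.card F₀ = q := by
    rw [hF] at hcard
    exact (Nat.pow_left_injective two_ne_zero hcard).symm
  refine isMaximalIn_of_equiv toLE (Small.mem_SU_iff hF (by norm_num)) (fun g => ?_)
    (N_maximal_orth ⟨GenSU.σ_ne hF, rfl⟩ (GenSU.ratOK_orth hF hodd hP)
      (two_ne_zero_of_odd_card (by rw [hF]; exact hodd.pow))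
      (fun a => by rw [stdRat_θ, hq, unitPowPolar_σ]) (stdRat_τ_τ hcard P) (by simp))
  rw [Subgroup.mem_inf, Small.mem_SU_iff hF (by norm_num), mem_subfieldSubgroup_iff_N, Subgroup.mem_inf]


end Cfsg.Agent.X5.Or
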