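import Cfsg.Agent.H1.U4Or2

/-!
The subgroups `O_5(q)` of `SU_5(q)`: overgroups containing a transvection with rational centre, and
stabilisers of rational singular points.
-/

set_option autoImplicit false
set_option linter.unusedSectionVars false

namespace Cfsg.Agent.X5.Or

open Module H7 H7.Polar H8 H9.UDec H1 H1.U4

variable {F : Type*} [Field F] {V : Type*} [AddCommGroup V] [Module F V] {P : Polar F V}
variable [Finite F] [FiniteDimensional F V] {F₀ : Subfield F}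

variable (P) in
/-- an overgroup of the orthogonal subfield subgroup -/
structure O5 (R : RatStr F₀ V) (X : Subgroup (V ≃ₗ[F] V)) : Prop where
  un : Un P
  ok : P.RatOK R
  two : (2 : F) ≠ 0
  θσ : ∀ a, R.θ a = P.σ a
  ττ : ∀ x, R.τ (R.τ x) = x
  dim : finrank F V = 5
  le : R.N ⊓ P.E ≤ X
  le' : X ≤ P.E

namespace O5

variable {R : RatStr F₀ V} {X : Subgroup (V ≃ₗ[F] V)} (h : O5 P R X)
include h

theorem iso {g : V ≃ₗ[F] V} (hg : g ∈ X) : g ∈ P.Iso := E_le_Iso (h.le' hg)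

theorem real {a : F} : a ∈ F₀ ↔ P.σ a = a := by rw [← h.θσ, R.θ_iff]

theorem τ_smul (a : F) (x : V) : R.τ (a • x) = P.σ a • R.τ x := by rw [R.τ_smul, h.θσ]

theorem B_τ (x y : V) : P.B (R.τ x) (R.τ y) = P.σ (P.B x y) := by rw [h.ok.B_τ, h.θσ]

theorem σB {x y : V} (hx : R.τ x = x) (hy : R.τ y = y) : P.σ (P.B x y) = P.B x y := by
  rw [← h.B_τ, hx, hy]

theorem symm {x y : V} (hx : R.τ x = x) (hy : R.τ y = y) : P.B y x = P.B x y := by
  rw [h.un.herm, h.σB hx hy]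

theorem wild : h.ok.restrict.Wild 3 := h.ok.wild_three (Or.inl h.un.ε)

theorem val_half (x : V) : P.Val x (P.B x x / 2) := by
  have := h.two
  rw [val_iff_of_unitary h.un.σ h.un.ε, map_div₀, h.un.σB, map_ofNat]
  field_simp
  ring

theorem mem (e y : V) (c : F) (he : R.τ e = e) (hy : R.τ y = y) (hc : c ∈ F₀) (h1 : P.Val e 0)
    (h2 : P.B y e = 0) (h3 : P.Val y c) : P.EI X e y c :=
  EI_of_mem h1 h2 h3 (h.le ⟨⟨1, fun x => by simp [h.ok.τ_eich he hy hc]⟩, eichE_mem_E _ _ _⟩)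

theorem τ_rr {a : V} (ha : R.τ a = a) (x : V) : R.τ (rr P a x) = rr P a (R.τ x) := by
  have := h.B_τ x a
  rw [ha] at this
  simp [rr, h.θσ, ha, this, h.un.σB, map_ofNat]

theorem exists_rot {a b : V} (ha : R.τ a = a) (hb : R.τ b = b) (ha0 : P.B a a ≠ 0)
    (hb0 : P.B b b ≠ 0) : ∃ k ∈ X, k ∈ R.N ∧ ∀ x, k x = rr P a (rr P b x) := by
  have h2 := h.two
  have key : ∀ {a : V} (ha0 : P.B a a ≠ 0), ∃ r ∈ P.Iso, LinearMap.det (r : V →ₗ[F] V) = -1 ∧
      ∀ x, r x = rr P a x := fun {a} ha0 =>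
    ⟨reflE (h.val_half a) (div_ne_zero ha0 h2), reflE_mem_Iso _ _, by
      rw [det_reflE, h.un.ε, map_div₀, h.un.σB, map_ofNat]; field_simp, fun x => by
      simp only [reflE_apply, Polar.refl, rr]
      congr 2
      field_simp⟩
  obtain ⟨r, h1, h3, h4⟩ := key ha0
  obtain ⟨r', h1', h3', h4'⟩ := key hb0
  have h5 : r * r' ∈ R.N := ⟨1, fun x => by simp [h4, h4', h.τ_rr ha, h.τ_rr hb]⟩
  refine ⟨r * r', h.le ⟨h5, mem_E h.un (by have := h.dim; omega) (P.Iso.mul_mem h1 h1') ?_⟩, h5, fun x => by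
    simp [h4, h4']⟩
  rw [LinearEquiv.coe_toLinearMap_mul, map_mul, h3, h3']
  simp

theorem exists_aniso {M : Submodule F V} (hM : R.Inv M) (hM' : ¬ M ≤ P.perp M) :
    ∃ y ∈ M, R.τ y = y ∧ P.B y y ≠ 0 := by
  by_contra! h1
  refine hM' (hM.le fun x hx hx' => mem_perp'.2 fun u hu =>
    (hM.le (N := P.pp x) (fun y hy hy' => ?_) hu))
  have := h1 _ (M.add_mem hx hy) (by rw [map_add, hx', hy'])
  simp only [map_add, LinearMap.add_apply, h1 x hx hx', h1 y hy hy', h.symm hy' hx'] at this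
  exact (mul_eq_zero.1 (show 2 * P.B y x = 0 by linear_combination this)).resolve_left h.two

theorem exists_aniso_perp {u : V} (hu : R.τ u = u) : ∃ y, R.τ y = y ∧ P.B y y ≠ 0 ∧ P.B u y = 0 := by
  obtain ⟨y, h1, h2, h3⟩ := h.exists_aniso (h.ok.inv_pp hu) fun h1 => by
    have := two_mul_finrank_le_of_le_perp h1
    have := finrank_inf_pp_ge (P := P) ⊤ u
    have := h.dim
    rw [top_inf_eq, finrank_top] at *
    omega
  exact ⟨y, h2, h3, P.B_symm h1⟩

theorem exists_partner {u : V} (hu : R.τ u = u) (hus : P.B u u = 0) (h0 : u ≠ 0) :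
    ∃ f, R.τ f = f ∧ P.B f f = 0 ∧ P.B u f = 1 ∧ P.B f u = 1 := by
  obtain ⟨y, -, hy, hy'⟩ := RatOK.exists_B_ne (P := P) (R := R) RatStr.inv_top (z := u)
    (by simpa [perp_top] using h0)
  have h2 := h.two
  have e1 := h.σB hy hu
  have e2 := h.σB hy hy
  have e3 := h.symm hy hu
  refine ⟨(P.B y u)⁻¹ • y - (P.B y y / (2 * P.B y u ^ 2)) • u, ?_, ?_, ?_, ?_⟩
  · simp [h.θσ, hy, hu, e1, e2, map_ofNat]
  all_goals simp [e1, e2, e3, hus, hy', map_ofNat]
  field_simp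
  ring

theorem hyp_perp {u f : V} (hus : P.B u u = 0) (hfs : P.B f f = 0) (huf : P.B u f = 1)
    (hfu : P.B f u = 1) : ¬ P.pp u ⊓ P.pp f ≤ P.perp (P.pp u ⊓ P.pp f) := fun h1 => by
  have h2 : P.pp u ⊓ P.pp f = ⊥ := eq_bot_iff.2 fun x hx => P.nondeg x fun y => by
    have h3 := h1 hx (y - P.B y f • u - P.B y u • f) ⟨by simp [hus, hfu], by simp [hfs, huf]⟩
    simpa [P.B_symm (mem_pp.1 hx.1), P.B_symm (mem_pp.1 hx.2)] using P.B_symm h3
  have := finrank_inf_pp_ge (P := P) ⊤ u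
  have := finrank_inf_pp_ge (P := P) (P.pp u) f
  have := h.dim
  rw [top_inf_eq, finrank_top, h2, finrank_bot] at *
  omega

theorem E_le_of_tv {w : V} (hw : R.τ w = w) (hws : P.Val w 0) (h0 : w ≠ 0) {c : F} (hc0 : c ≠ 0)
    (hc : P.Val 0 c) (h1 : P.EI X w 0 c) : P.E ≤ X := by
  have h2 := h.two
  have hww := sing_B hws
  obtain ⟨f, hf, hff, hwf, hfw⟩ := h.exists_partner hw hww h0
  have hM := (h.ok.inv_pp hw).inf (h.ok.inv_pp hf)
  obtain ⟨y, hy, hy1, hyy⟩ := h.exists_aniso hM (h.hyp_perp hww hff hwf hfw)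
  have hyw : P.B y w = 0 := hy.1
  have hyf : P.B y f = 0 := hy.2
  have k1 : ∀ t, P.σ t = t → P.EI X w 0 (t * t * c) := fun t ht => by
    by_cases ht0 : t = 0
    · simpa [ht0] using EI.zero w
    obtain ⟨k, hk, -, h3⟩ := h.exists_rot (a := w + f) (b := w + t • f) (by simp [hw, hf])
      (by simp [hw, hf, h.θσ, ht]) (by simpa [hww, hff, hwf, hfw, one_add_one_eq_two])
      (by simp [hww, hff, hwf, hfw, ht, ← two_mul, h2, ht0])
    have h4 : k w = t • w := by
      have e1 : P.B (w + f) (w + f) = 2 := by simp [hww, hff, hwf, hfw, one_add_one_eq_two]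
      have e2 : P.B (w + t • f) (w + t • f) = 2 * t := by
        simp [hww, hff, hwf, hfw, ht, two_mul]
      rw [h3, rr, rr, e1, e2]
      simp only [map_add, map_sub, map_smul, LinearMap.add_apply, LinearMap.sub_apply,
        LinearMap.smul_apply, B_smul_right, hww, hff, hwf, hfw, ht, smul_eq_mul]
      match_scalars <;> field_simp <;> ring
    have := h1.conj hk (h.iso hk)
    rwa [h4, map_zero, EI.smul_iff, smul_zero, ht] at this
  have k2 : TX P X w := ⟨hws, fun d hd => by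
    have h3 : P.σ (d / c) = d / c := by rw [map_div₀, h.un.lam.1 hc, h.un.lam.1 hd, neg_div_neg_eq]
    have h4 : P.Val 0 (((d / c - 1) / 2) * ((d / c - 1) / 2) * c) := h.un.lam.2 (by
      simp [h3, h.un.lam.1 hc, -map_div₀, map_div₀ _ _ (2 : F), map_ofNat])
    refine ((k1 ((d / c + 1) / 2) (by simp [h3, -map_div₀, map_div₀ _ _ (2 : F), map_ofNat])).add
      ((k1 ((d / c - 1) / 2) (by simp [h3, -map_div₀, map_div₀ _ _ (2 : F), map_ofNat])).neg hws (by simp) h4)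
      hws (by simp) (by simp)).congr (by simp) ?_
    rw [h.un.lam.1 h4, h.un.ε]
    simp
    field_simp
    ring⟩
  obtain ⟨s, hs, -, h3⟩ := h.exists_rot (a := w - f) (b := y) (by simp [hw, hf]) hy1
    (by simpa [hww, hff, hwf, hfw, ← neg_add', one_add_one_eq_two]) hyy
  have e1 : P.B (w - f) (w - f) = -2 := by
    simp only [map_sub, LinearMap.sub_apply, hww, hff, hwf, hfw]; ring
  have hsw : s w = f := by
    rw [h3, rr_fix (P.B_symm hyw), rr, e1]
    simp only [map_sub, hww, hwf]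
    match_scalars <;> field_simp <;> ring
  have hsf : s f = w := by
    rw [h3, rr_fix (P.B_symm hyf), rr, e1]
    simp only [map_sub, hff, hfw]
    match_scalars <;> field_simp <;> ring
  have k3 : TX P X f := hsw ▸ k2.conj hs (h.iso hs)
  have hcσ := h.un.lam.1 hc
  have hc' : P.Val 0 (-c⁻¹) := h.un.lam.2 (by simp [hcσ])
  have k4 := mul_mem hs (mul_mem (k2.mem hc') (k3.mem hc))
  have k5 : ∀ m ∈ P.pp w ⊓ P.pp f, R.τ m = m → c • m ∈ P.zSub X hws := fun m hm hm1 => by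
    have h5 : rr P y m ∈ P.pp w ⊓ P.pp f := sub_mem hm (Submodule.smul_mem _ _ hy)
    have := map_mem_zSub hws k4 (h.iso k4) hc0 (by
      simp [eich_tv, hcσ, hww, hwf, hfw, hc0, hsf])
      (h.ok.mem_zSub_of_rat h.mem hws hw (by rw [h.τ_rr hy1, hm1]) h5.1)
    rw [LinearEquiv.mul_apply, LinearEquiv.mul_apply, eichE_apply, eichE_apply,
      eich_fix c h5.2 (by simp), eich_fix _ h5.1 (by simp), h3, hcσ,
      show rr P y (rr P y m) = m by simp [rr, hyy]; module,
      rr_fix (by simp [mem_pp.1 hm.1, mem_pp.1 hm.2]), neg_smul] at this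
    simpa using neg_mem this
  have k6 : P.pp w ⊓ P.pp f ≤ P.eSub X hws := hM.le fun m hm hm1 =>
    Sing.mem_eSub_of_forall fun a => by
      obtain ⟨s, t, hs, ht, rfl⟩ := exists_real_comb (P := P) (ξ := c)
        (fun h5 => hc0 ((mul_eq_zero.1 (show 2 * c = 0 by
          linear_combination hcσ - h5)).resolve_left h2)) a
      rw [add_smul, mul_comm, mul_smul]
      exact add_mem (h.ok.mem_zSub_of_rat h.mem hws hw (by rw [h.τ_smul, hs, hm1])
        (by simp [mem_pp.1 hm.1])) (k5 _ (Submodule.smul_mem _ _ hm) (by rw [h.τ_smul, ht, hm1]))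
  have k7 : P.FullA X w := fullA_of_eSub hws k2.2 fun x hx => by
    have := add_mem (k6 (x := x - P.B x f • w) ⟨by simp [hww, mem_pp.1 hx], by simp [hwf]⟩)
      (Submodule.smul_mem _ (P.B x f)
        (Sing.mem_eSub_of_forall fun a => Sub4.smul_mem_zSub_self hws a))
    simpa using this
  exact E_le_of_fullA hws k3.1 k7 (hsw ▸ k7.conj hs (h.iso hs)) (by simp [hfw])

variable (hX : ¬ P.E ≤ X)
include hX

theorem τ_sub {w : V} (hw : R.τ w = w) (hws : P.Val w 0) (h0 : w ≠ 0) {z : V}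
    (hz : z ∈ P.zSub X hws) : R.τ z - z ∈ F ∙ w :=
  h.ok.τ_sub_mem hw fun y hy hyw => by
    by_contra h1
    exact hX (h.E_le_of_tv hw hws h0 (fun e => h1 (h.real.2 (by
      rw [h.un.ε, one_mul, sub_eq_zero] at e; exact e.symm)))
      (P.val_min _) (Sub4.EI_comm_zSub hz (h.ok.mem_zSub_of_rat h.mem hws hw hy hyw)))

theorem mem_N_of_fix {u : V} (hu : R.τ u = u) (hus : P.Val u 0) (h0 : u ≠ 0) {g : V ≃ₗ[F] V}
    (hg : g ∈ X) {l : F} (hl : g u = l • u) : g ∈ R.N := by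
  have h2 := h.two
  have hl0 : l ≠ 0 := by rintro rfl; simp [h0] at hl
  have hlσ : P.σ l ≠ 0 := by simpa
  have huu := sing_B hus
  obtain ⟨f, hf, hff, huf, hfu⟩ := h.exists_partner hu huu h0
  have hI := h.iso hg
  have h1 : P.B (g f) u = (P.σ l)⁻¹ := by
    have := Iso.B hI f u
    rw [hl, B_smul_right, hfu] at this
    exact eq_inv_of_mul_eq_one_right this
  obtain ⟨z, d, hz, hd, h3⟩ := exists_eich_move (u := u) (Iso.val hI (h.un.sing.2 hff))
    (sing_smul (h.un.sing.2 hff) (P.σ l)⁻¹) (by simp [h1, hfu]) (by simp [h1, hl0])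
  set k := eichE hus hz hd * g with hk
  have hkE : k ∈ P.E := P.E.mul_mem (eichE_mem_E _ _ _) (h.le' hg)
  have hku : k u = l • u := by simp [hk, hl, eich_fix d huu (P.B_symm hz)]
  have hkf : k f = (P.σ l)⁻¹ • f := h3
  have hkm : ∀ m, P.B m u = 0 → P.B m f = 0 → R.τ m = m →
      R.τ (P.σ l • k m) = P.σ l • k m := fun m h4 h5 h6 => by
    have h7 : P.B (g m) u = 0 := by simpa [hl, hl0, h4] using Iso.B hI m u
    have h8 : P.B (k m) f = 0 := by simpa [hkf, hl0, h5] using Iso.B (E_le_Iso hkE) m f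
    obtain ⟨a, ha⟩ := Submodule.mem_span_singleton.1 (h.τ_sub hX hu hus h0
      (map_mem_zSub hus hg hI hl0 hl (h.ok.mem_zSub_of_rat h.mem hus hu h6 h4)))
    have h9 : k m = g m - P.B (g m) z • u := by simp [hk, eich, h7, h.un.ε]
    have h10 : R.τ (P.σ l • k m) - P.σ l • k m =
        (a - l * P.σ (P.B (g m) z) + P.σ l * P.B (g m) z) • u := by
      rw [h9, smul_sub, map_sub, sub_eq_iff_eq_add.1 ha.symm, h.τ_smul, h.τ_smul, hu, σσ]
      module
    have h11 := h.B_τ (P.σ l • k m) f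
    have h12 := congrArg (P.B · f) h10
    rw [hf] at h11
    simp only [map_sub, LinearMap.sub_apply, h11, map_smul, LinearMap.smul_apply, h8, huf,
      smul_eq_mul, mul_zero, map_zero, sub_zero, mul_one] at h12
    rw [← sub_eq_zero, h10, ← h12, zero_smul]
  have hkN : k ∈ R.N := RatStr.mem_N_of (c := P.σ l / l) fun x hx => by
    have e1 := h.σB hx hu
    have e2 := h.σB hx hf
    have h4 := hkm (x - P.B x f • u - P.B x u • f) (by simp [huu, hfu]) (by simp [hff, huf])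
      (by simp [hx, hu, hf, h.θσ, e1, e2])
    simp only [map_sub, map_smul, hku, hkf, smul_sub, h.τ_smul, hu, hf, σσ, e1, e2,
      map_inv₀] at h4
    refine smul_right_injective V hl0 ?_
    linear_combination (norm := skip) h4
    match_scalars <;> field_simp <;> ring
  have h4 : eichE hus hz hd ∈ X := (X.mul_mem_cancel_right hg).1 (h.le ⟨hkN, hkE⟩)
  obtain ⟨a, ha⟩ := Submodule.mem_span_singleton.1
    (h.τ_sub hX hu hus h0 ⟨hz, d, hd, EI_of_mem _ _ _ h4⟩)
  have h5 : R.τ (z + (a / 2) • u) = z + (a / 2) • u := by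
    have h6 := congrArg R.τ ha
    rw [map_sub, h.ττ, h.τ_smul, hu, ← neg_sub, ← ha] at h6
    rw [map_add, h.τ_smul, hu, sub_eq_iff_eq_add.1 ha.symm, map_div₀, map_ofNat]
    linear_combination (norm := skip) (2 : F)⁻¹ • h6
    match_scalars <;> field_simp <;> ring
  have h6 : P.B (z + (a / 2) • u) u = 0 := by simp [hz, huu]
  set c₀ := P.B (z + (a / 2) • u) (z + (a / 2) • u) / 2 with hc₀
  have hc₀' : c₀ ∈ F₀ := h.real.2 (by rw [hc₀, map_div₀, h.un.σB, map_ofNat])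
  have h7 := h.mem u _ c₀ hu h5 hc₀' hus h6 (h.val_half _)
  have h8 : P.Val z (c₀ + (P.ε * (a / 2) - P.σ (a / 2))) := by
    have := val_add_lam (val_add_sing (h.val_half (z + (a / 2) • u)) hus (-(a / 2)))
      (lam_neg (P.val_min (P.σ (a / 2))))
    exact val_congr' this (by simp) (by rw [h6, ← hc₀, σσ]; ring)
  rw [EI.add_smul_iff] at h7
  have h9 : c₀ + (P.ε * (a / 2) - P.σ (a / 2)) = d := by
    by_contra h9
    refine hX (h.E_le_of_tv hu hus h0 (sub_ne_zero.2 h9) (val_sub_val h8 hd)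
      ((h7.add ((EI_of_mem _ _ _ h4).neg hus hz hd) hus hz (by simp [hz])).congr (by simp) ?_))
    simp [P.val_self hd]
    ring
  have h10 : eichE hus hz hd ∈ R.N := ⟨1, fun x => by
    simp only [eichE_apply, ← h9, ← eich_add_smul, h.ok.τ_eich hu h5 hc₀', Units.val_one,
      one_smul]⟩
  simpa [hk] using mul_mem (inv_mem h10) hkN

omit hX in
theorem exists_move {u v : V} (hu : R.τ u = u) (hus : P.Val u 0) (h0 : u ≠ 0) (hv : R.τ v = v)
    (hvs : P.Val v 0) (hv0 : v ≠ 0) : ∃ k ∈ X, k ∈ R.N ∧ k v = u := by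
  have h2 := h.two
  have key : ∀ {u v : V}, R.τ u = u → P.Val u 0 → R.τ v = v → P.Val v 0 → P.B v u ≠ 0 →
      ∃ k ∈ X, k ∈ R.N ∧ k v = u := fun {u v} hu hus hv hvs h1 => by
    obtain ⟨y, hy, hyy, hvy⟩ := h.exists_aniso_perp hv
    have h3 : P.B (v - u) (v - u) = -2 * P.B v u := by
      simp [sing_B hus, sing_B hvs, h.symm hv hu]; ring
    obtain ⟨k, hk, hk', h4⟩ := h.exists_rot (a := v - u) (by simp [hu, hv]) hy
      (by simp [h3, h1, h2, -map_sub]) hyy
    refine ⟨k, hk, hk', ?_⟩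
    rw [h4, rr_fix hvy, rr, h3]
    simp only [map_sub, sing_B hvs]
    match_scalars <;> field_simp <;> ring
  by_cases h1 : P.B v u = 0
  · obtain ⟨y, hy, h3, h4⟩ := exists_sing_not_perp (P := h.ok.restrict) (u := ⟨v, hv⟩)
      (z := ⟨u, hu⟩) hvs (fun h => hv0 (congrArg Subtype.val h))
      (fun h => h0 (congrArg Subtype.val h)) (h.ok.restrict_B_eq_zero.2 h1)
    obtain ⟨k, hk, hk', h5⟩ := key y.2 hy hv hvs (P.B_ne_symm (h.ok.restrict_B_eq_zero.not.1 h3))
    obtain ⟨k', hk1, hk1', h6⟩ := key hu hus y.2 hy (h.ok.restrict_B_eq_zero.not.1 h4)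
    exact ⟨k' * k, mul_mem hk1 hk, mul_mem hk1' hk', by simp [h5, h6]⟩
  · exact key hu hus hv hvs h1

omit hX in
theorem exists_real {x : V} (h0 : x ≠ 0) (hx : R.τ x ∈ F ∙ x) :
    ∃ a : F, a ≠ 0 ∧ R.τ (a • x) = a • x := by
  obtain ⟨v, hv, hv1, hv0⟩ := (RatStr.inv_span hx).exists_notMem (N := ⊥) (by simpa using h0)
  obtain ⟨a, rfl⟩ := Submodule.mem_span_singleton.1 hv
  exact ⟨a, by rintro rfl; simp at hv0, hv1⟩

theorem mem_N_of_real {u : V} (hu : R.τ u ∈ F ∙ u) (hus : P.Val u 0) (h0 : u ≠ 0)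
    {g : V ≃ₗ[F] V} (hg : g ∈ X) (hgu : R.τ (g u) ∈ F ∙ g u) : g ∈ R.N := by
  obtain ⟨a, ha0, ha⟩ := h.exists_real h0 hu
  obtain ⟨b, hb0, hb⟩ := h.exists_real (by simpa using h0) hgu
  obtain ⟨k, hk, hk', h1⟩ := h.exists_move ha (sing_smul hus a) (smul_ne_zero ha0 h0) hb
    (sing_smul (Iso.val (h.iso hg) hus) b) (smul_ne_zero hb0 (by simpa using h0))
  have := h.mem_N_of_fix hX ha (sing_smul hus a) (smul_ne_zero ha0 h0) (mul_mem hk hg)
    (l := a / b) (by
      rw [LinearEquiv.mul_apply, show g (a • u) = (a / b) • (b • g u) by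
        rw [map_smul, smul_smul, div_mul_cancel₀ _ hb0], map_smul, h1])
  simpa using mul_mem (inv_mem hk') this

end O5

end Cfsg.Agent.X5.Or
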